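/-
Signed counts of chains in a finite poset.
-/
import Mathlib

set_option autoImplicit false

namespace Cfsg.Agent.Lib.StVal

open scoped BigOperators _root_.Classical

variable {α : Type*} [PartialOrder α]

/-- Signed count of chains in a finite subset of a poset. -/
noncomputable def chainSum (I : Finset α) : ℤ :=
  ∑ S ∈ I.powerset.filter (fun S : Finset α => IsChain (· ≤ ·) (S : Set α)), (-1) ^ S.card

theorem chain_exists_greatest {S : Finset α} (hS : IsChain (· ≤ ·) (S : Set α)) (hne : S.Nonempty) :
    ∃ y, IsGreatest (S : Set α) y := by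
  obtain ⟨m, hm⟩ := S.exists_maximal hne
  refine ⟨m, hm.1, fun z hz => ?_⟩
  rcases hS.total hz hm.1 with h | h
  · exact h
  · exact hm.2 hz h

theorem chainSum_rec (I : Finset α) : chainSum I = 1 - ∑ y ∈ I, chainSum (I.filter (· < y)) := by
  have h0 : (∅ : Finset α) ∈ I.powerset.filter (fun S : Finset α => IsChain (· ≤ ·) (S : Set α)) := by
    simp
  rw [chainSum, ← Finset.add_sum_erase _ _ h0]
  rw [Finset.card_empty, pow_zero, sub_eq_add_neg, ← Finset.sum_neg_distrib]
  congr 1
  have h1 : ∀ S ∈ (I.powerset.filter (fun S : Finset α => IsChain (· ≤ ·) (S : Set α))).erase ∅,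
      ((-1 : ℤ) ^ S.card) = ∑ y ∈ I.filter (fun y => IsGreatest (S : Set α) y), (-1 : ℤ) ^ S.card := by
    intro S hS
    simp only [Finset.mem_erase, Finset.mem_filter, Finset.mem_powerset] at hS
    obtain ⟨hne, hSI, hc⟩ := hS
    obtain ⟨y, hy⟩ := chain_exists_greatest hc (Finset.nonempty_iff_ne_empty.mpr hne)
    have : I.filter (fun y => IsGreatest (S : Set α) y) = {y} := by
      ext z
      simp only [Finset.mem_filter, Finset.mem_singleton]
      constructor
      · rintro ⟨_, hz⟩
        exact hz.unique hy
      · rintro rfl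
        exact ⟨hSI hy.1, hy⟩
    rw [this, Finset.sum_singleton]
  rw [Finset.sum_congr rfl h1]
  rw [Finset.sum_comm' (t' := I)
    (s' := fun y => ((I.powerset.filter (fun S : Finset α => IsChain (· ≤ ·) (S : Set α))).erase ∅).filter
      (fun S : Finset α => IsGreatest (S : Set α) y))
    (by
      intro S y
      simp only [Finset.mem_filter]
      tauto)]
  refine Finset.sum_congr rfl fun y hy => ?_
  rw [chainSum, ← Finset.sum_neg_distrib]
  refine Finset.sum_bij' (fun S _ => S.erase y) (fun S' _ => insert y S') ?_ ?_ ?_ ?_ ?_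
  · intro S hS
    simp only [Finset.mem_erase, Finset.mem_filter, Finset.mem_powerset] at hS ⊢
    obtain ⟨⟨_, hSI, hc⟩, hg⟩ := hS
    refine ⟨?_, hc.mono ?_⟩
    · intro z hz
      rw [Finset.mem_erase] at hz
      rw [Finset.mem_filter]
      exact ⟨hSI hz.2, lt_of_le_of_ne (hg.2 hz.2) hz.1⟩
    · simpa using Finset.erase_subset y S
  · intro S' hS'
    simp only [Finset.mem_filter, Finset.mem_powerset] at hS'
    obtain ⟨hS'I, hc⟩ := hS'
    simp only [Finset.mem_erase, Finset.mem_filter, Finset.mem_powerset]
    refine ⟨⟨Finset.insert_ne_empty _ _, ?_, ?_⟩, ?_⟩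
    · intro z hz
      rcases Finset.mem_insert.mp hz with rfl | hz
      · exact hy
      · exact (Finset.mem_filter.mp (hS'I hz)).1
    · rw [Finset.coe_insert]
      refine hc.insert fun b hb _ => Or.inr ?_
      exact (Finset.mem_filter.mp (hS'I hb)).2.le
    · refine ⟨by simp, ?_⟩
      intro z hz
      simp only [Finset.coe_insert, Set.mem_insert_iff, Finset.mem_coe] at hz
      rcases hz with rfl | hz
      · exact le_refl _
      · exact (Finset.mem_filter.mp (hS'I hz)).2.le
  · intro S hS
    simp only [Finset.mem_filter] at hS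
    exact Finset.insert_erase (by exact_mod_cast hS.2.1)
  · intro S' hS'
    simp only [Finset.mem_filter, Finset.mem_powerset] at hS'
    apply Finset.erase_insert
    intro hy'
    exact lt_irrefl _ (Finset.mem_filter.mp (hS'.1 hy')).2
  · intro S hS
    simp only [Finset.mem_filter] at hS
    have hyS : y ∈ S := by exact_mod_cast hS.2.1
    have h3 := Finset.card_erase_add_one hyS
    rw [← h3, pow_succ]
    ring

end Cfsg.Agent.Lib.StVal
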