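/-
Multiplicities in the characteristic polynomial of a semisimple endomorphism.
-/
import Cfsg.Agent.Lib.SemiSimple.Basic
import Cfsg.Agent.Lib.MatConj.Semisimple

set_option autoImplicit false
set_option linter.unusedSectionVars false

namespace Cfsg.Agent.Lib.StVal

open Polynomial Module UniqueFactorizationMonoid
open Cfsg.Agent.Lib.MatConj.Semisimple Cfsg.Agent.Lib.SemiSimple.Basic

universe u

variable {F : Type u} [Field F]

theorem charpoly_pi : ∀ (m : ℕ) (κ : Type u) [Fintype κ] (_ : Fintype.card κ = m) (R : κ → F[X])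
    (_ : ∀ k, (R k).Monic) (V : Type u) [AddCommGroup V] [Module F V] [FiniteDimensional F V] (T : V →ₗ[F] V)
    (Φ : V ≃ₗ[F] ∀ k, AdjoinRoot (R k)) (_ : ∀ x k, Φ (T x) k = AdjoinRoot.root _ * Φ x k),
    T.charpoly = ∏ k, R k := by
  intro m
  induction m with
  | zero =>
    intro κ _ hm R hR V _ _ _ T Φ hΦ
    haveI : IsEmpty κ := Fintype.card_eq_zero_iff.mp hm
    have : Subsingleton V := Φ.injective.subsingleton
    rw [Finset.univ_eq_empty, Finset.prod_empty]
    apply eq_one_of_monic_natDegree_zero (LinearMap.charpoly_monic _)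
    rw [LinearMap.charpoly_natDegree]
    exact finrank_zero_of_subsingleton
  | succ m ih =>
    intro κ _ hm R hR V _ _ _ T Φ hΦ
    classical
    obtain ⟨i⟩ : Nonempty κ := Fintype.card_pos_iff.mp (by omega)
    haveI hfin : ∀ j, Module.Finite F (AdjoinRoot (R j)) := fun j => (hR j).finite_adjoinRoot
    let V₁ := Π j : {j // j ≠ i}, AdjoinRoot (R j)
    let T₁ : V₁ →ₗ[F] V₁ := LinearMap.pi (fun j => (rootMul _) ∘ₗ LinearMap.proj j)
    have h1 := charpoly_of_split (hR i) T T₁ (Φ ≪≫ₗ piSplit i _) (by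
      intro x
      refine Prod.ext ?_ ?_
      · show Φ (T x) i = _
        rw [hΦ]
        rfl
      · funext j
        show Φ (T x) j.1 = rootMul _ (Φ x j.1)
        rw [hΦ]
        rfl)
    have h2 := ih {j // j ≠ i} (by rw [Fintype.card_subtype_compl, Fintype.card_subtype_eq]; omega) (fun j => R j) (fun j => hR j)
      V₁ T₁ (LinearEquiv.refl _ _) (fun x k => rfl)
    rw [h1, h2, Fintype.prod_eq_mul_prod_subtype_ne _ i]

theorem count_of_decomp [DecidableEq F] [DecidableEq F[X]] {κ : Type u} [Fintype κ] {V : Type u} [AddCommGroup V] [Module F V]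
    [FiniteDimensional F V] {T : V →ₗ[F] V} {R : κ → F[X]} {Φ : V ≃ₗ[F] ∀ k, AdjoinRoot (R k)} (h : SSDecomp T R Φ)
    (f : F[X]) (hf : Irreducible f) (hm : f.Monic) :
    (normalizedFactors T.charpoly).count f * f.natDegree = finrank F (LinearMap.ker (Polynomial.aeval T f)) := by
  rw [h.finrank_ker f hf hm, charpoly_pi _ κ rfl R h.monic V T Φ h.comm]
  congr 1
  have h1 : ∏ k, R k = (Multiset.map R Finset.univ.val).prod := rfl
  rw [h1, normalizedFactors_prod_eq _ (by
      intro a ha
      obtain ⟨k, _, rfl⟩ := Multiset.mem_map.mp ha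
      exact h.irr k), Multiset.map_map]
  have h2 : (normalize ∘ R) = R := funext fun k => (h.monic k).normalize_eq_self
  rw [h2, Multiset.count_map, Fintype.card_subtype]
  show _ = (Finset.univ.filter fun k => R k = f).val.card
  rw [Finset.filter_val]
  congr 1
  exact Multiset.filter_congr fun k _ => eq_comm

end Cfsg.Agent.Lib.StVal
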