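/-
Permutations `κ` of `Fin n` with `κ i ≤ i + 1`: they are parametrized by the subsets of the non-last positions,
with sign `(-1)^|E|`.
-/
import Mathlib

set_option autoImplicit false
set_option linter.unusedSectionVars false

namespace Cfsg.Agent.Lib.StVal

open scoped BigOperators

variable {n : ℕ}

/-- The Hessenberg condition. -/
def Hess (κ : Equiv.Perm (Fin n)) : Prop := ∀ i : Fin n, (κ i).val ≤ i.val + 1

/-- The positions raised by one. -/
def En (κ : Equiv.Perm (Fin n)) : Finset (Fin n) := Finset.univ.filter fun i => (κ i).val = i.val + 1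

theorem mem_En {κ : Equiv.Perm (Fin n)} {i : Fin n} : i ∈ En κ ↔ (κ i).val = i.val + 1 := by
  simp [En]

/-- The non-last positions. -/
def Dn (n : ℕ) : Finset (Fin n) := Finset.univ.filter fun i => i.val + 1 < n

theorem mem_Dn {i : Fin n} : i ∈ Dn n ↔ i.val + 1 < n := by
  simp [Dn]

theorem En_subset (κ : Equiv.Perm (Fin n)) : En κ ⊆ Dn n := by
  intro i hi
  rw [mem_En] at hi
  rw [mem_Dn, ← hi]
  exact (κ i).2

/-- Away from the raised positions, `κ` preserves initial segments. -/
theorem preserve {κ : Equiv.Perm (Fin n)} (hκ : Hess κ) {t : Fin n} (ht : t ∉ En κ) (i : Fin n) (hi : i ≤ t) :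
    κ i ≤ t := by
  rw [mem_En] at ht
  have h1 := hκ i
  have hi' : i.val ≤ t.val := hi
  by_contra hc
  have hc' : t.val < (κ i).val := not_le.mp hc
  have h2 : (κ i).val = t.val + 1 := by omega
  have h3 : i = t := Fin.ext (by omega)
  rw [h3] at h2
  exact ht h2

/-- `κ` is a bijection of the initial segment up to `t`. -/
theorem image_Iic {κ : Equiv.Perm (Fin n)} (hκ : Hess κ) {t : Fin n} (ht : t ∉ En κ) :
    (Finset.Iic t).image κ = Finset.Iic t := by
  apply Finset.eq_of_subset_of_card_le
  · intro v hv
    obtain ⟨i, hi, rfl⟩ := Finset.mem_image.mp hv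
    exact Finset.mem_Iic.mpr (preserve hκ ht i (Finset.mem_Iic.mp hi))
  · rw [Finset.card_image_of_injective _ κ.injective]

/-- The parameter determines the permutation. -/
theorem En_injective {κ κ' : Equiv.Perm (Fin n)} (hκ : Hess κ) (hκ' : Hess κ') (h : En κ = En κ') : κ = κ' := by
  ext i
  have key : ∀ m : ℕ, ∀ i : Fin n, i.val = m → κ i = κ' i := by
    intro m
    induction m using Nat.strong_induction_on with
    | _ m ih =>
      intro i hm
      by_cases hi : i ∈ En κ
      · have h1 := mem_En.mp hi
        have h2 := mem_En.mp (h ▸ hi)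
        exact Fin.ext (h1.trans h2.symm)
      · have hi' : i ∉ En κ' := h ▸ hi
        have h3 : κ' i ∈ (Finset.Iic i).image κ := by
          rw [image_Iic hκ hi]
          exact Finset.mem_Iic.mpr (preserve hκ' hi' i le_rfl)
        obtain ⟨j, hj, hjv⟩ := Finset.mem_image.mp h3
        have hj' : j ≤ i := Finset.mem_Iic.mp hj
        rcases lt_or_eq_of_le hj' with hlt | rfl
        · have hlt' : j.val < m := by
            rw [← hm]
            exact hlt
          have h4 := ih j.val hlt' j rfl
          rw [h4] at hjv
          have := κ'.injective hjv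
          exact absurd this (ne_of_lt hlt)
        · exact hjv.symm ▸ rfl
  exact congrArg Fin.val (key i.val i rfl)

/-- Existence of a permutation for each parameter, with its sign. -/
theorem exists_of_subset (E : Finset (Fin n)) (hE : E ⊆ Dn n) :
    ∃ κ : Equiv.Perm (Fin n), Hess κ ∧ En κ = E ∧ Equiv.Perm.sign κ = (-1) ^ E.card ∧
      ∀ j : Fin n, (∀ e ∈ E, e.val + 1 < j.val) → κ j = j := by
  induction E using Finset.induction_on_max with
  | empty =>
    refine ⟨1, fun i => ?_, ?_, by simp, fun j _ => rfl⟩
    · simp
    · ext i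
      simp [mem_En]
  | insert i E hmax ih =>
    have hE' : E ⊆ Dn n := fun e he => hE (Finset.mem_insert_of_mem he)
    obtain ⟨κ, hκ, hEn, hsign, hfix⟩ := ih hE'
    have hi : i.val + 1 < n := mem_Dn.mp (hE (Finset.mem_insert_self _ _))
    have hiE : i ∉ E := fun h => lt_irrefl _ (hmax i h)
    let i' : Fin n := ⟨i.val + 1, hi⟩
    have hne : i ≠ i' := by
      intro h
      have := congrArg Fin.val h
      simp [i'] at this
    have hκi : (κ i).val ≤ i.val := by
      have h1 := hκ i
      have h2 : i ∉ En κ := hEn ▸ hiE
      rw [mem_En] at h2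
      omega
    have hκi' : κ i' = i' := by
      apply hfix
      intro e he
      have h1 : e.val < i.val := hmax e he
      show e.val + 1 < i.val + 1
      omega
    refine ⟨κ * Equiv.swap i i', ?_, ?_, ?_, ?_⟩
    · intro k
      rw [Equiv.Perm.mul_apply]
      by_cases hk : k = i
      · subst hk
        rw [Equiv.swap_apply_left, hκi']
      by_cases hk' : k = i'
      · subst hk'
        rw [Equiv.swap_apply_right]
        show (κ i).val ≤ i.val + 1 + 1
        omega
      · rw [Equiv.swap_apply_of_ne_of_ne hk hk']
        exact hκ k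
    · ext k
      rw [mem_En, Equiv.Perm.mul_apply, Finset.mem_insert]
      by_cases hk : k = i
      · subst hk
        rw [Equiv.swap_apply_left, hκi']
        simp [i']
      by_cases hk' : k = i'
      · subst hk'
        rw [Equiv.swap_apply_right]
        constructor
        · intro h
          have : i'.val = i.val + 1 := rfl
          omega
        · rintro (h | h)
          · exact absurd h.symm hne
          · have h1 : i'.val < i.val := hmax _ h
            have : i'.val = i.val + 1 := rfl
            omega
      · rw [Equiv.swap_apply_of_ne_of_ne hk hk', ← mem_En, hEn]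
        simp [hk]
    · rw [Equiv.Perm.sign_mul, hsign, Equiv.Perm.sign_swap hne, Finset.card_insert_of_notMem hiE, pow_succ]
    · intro j hj
      have h1 := hj i (Finset.mem_insert_self _ _)
      have hji : j ≠ i := by
        rintro rfl
        omega
      have hji' : j ≠ i' := by
        rintro rfl
        have : i'.val = i.val + 1 := rfl
        omega
      rw [Equiv.Perm.mul_apply, Equiv.swap_apply_of_ne_of_ne hji hji']
      exact hfix j fun e he => hj e (Finset.mem_insert_of_mem he)

/-- The sign of a Hessenberg permutation. -/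
theorem sign_of_Hess {κ : Equiv.Perm (Fin n)} (hκ : Hess κ) : Equiv.Perm.sign κ = (-1) ^ (En κ).card := by
  obtain ⟨κ', h1, h2, h3, -⟩ := exists_of_subset (En κ) (En_subset κ)
  have := En_injective hκ h1 h2.symm
  rw [this, h3, h2]

open Classical in
/-- Sums over Hessenberg permutations. -/
theorem sum_Hess {R : Type*} [AddCommMonoid R] (G : Finset (Fin n) → R) :
    ∑ κ ∈ Finset.univ.filter (Hess (n := n)), G (En κ) = ∑ E ∈ (Dn n).powerset, G E := by
  refine Finset.sum_nbij En ?_ ?_ ?_ (fun _ _ => rfl)
  · intro κ _
    exact Finset.mem_powerset.mpr (En_subset κ)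
  · intro κ hκ κ' hκ' h
    exact En_injective (Finset.mem_filter.mp hκ).2 (Finset.mem_filter.mp hκ').2 h
  · intro E hE
    obtain ⟨κ, h1, h2, -, -⟩ := exists_of_subset E (Finset.mem_powerset.mp hE)
    exact ⟨κ, by simp [h1], h2⟩

end Cfsg.Agent.Lib.StVal
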