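/-
The block labels of the compositions `i ↦ 1 + i - κ i`.
-/
import Cfsg.Agent.Lib.StVal.Hess
import Cfsg.Prelude.Def_LinearParabolics

set_option autoImplicit false
set_option linter.unusedSectionVars false

namespace Cfsg.Agent.Lib.StVal

open scoped BigOperators

variable {n : ℕ}

/-- The composition attached to `κ`. -/
def muK (κ : Equiv.Perm (Fin n)) : Fin n → ℕ := fun i => 1 + i.val - (κ i).val

/-- Partial sums. -/
def Pk (κ : Equiv.Perm (Fin n)) (t : Fin n) : ℕ := ∑ k ∈ Finset.univ.filter (fun k : Fin n => k ≤ t), muK κ k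

theorem filter_le (t : Fin n) : Finset.univ.filter (fun k : Fin n => k ≤ t) = Finset.Iic t := by
  ext k
  simp

theorem Pk_mono (κ : Equiv.Perm (Fin n)) {t t' : Fin n} (h : t ≤ t') : Pk κ t ≤ Pk κ t' := by
  apply Finset.sum_le_sum_of_subset
  intro k hk
  simp only [Finset.mem_filter, Finset.mem_univ, true_and] at hk ⊢
  exact hk.trans h

theorem Pk_not {κ : Equiv.Perm (Fin n)} (hκ : Hess κ) {t : Fin n} (ht : t ∉ En κ) : Pk κ t = t.val + 1 := by
  have h1 : ∑ k ∈ Finset.Iic t, (κ k).val = ∑ k ∈ Finset.Iic t, k.val := by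
    conv_rhs => rw [← image_Iic hκ ht]
    rw [Finset.sum_image (fun a _ b _ h => κ.injective h)]
  have h2 : ∑ k ∈ Finset.Iic t, muK κ k + ∑ k ∈ Finset.Iic t, (κ k).val = ∑ k ∈ Finset.Iic t, (1 + k.val) := by
    rw [← Finset.sum_add_distrib]
    refine Finset.sum_congr rfl fun k _ => ?_
    have := hκ k
    simp only [muK]
    omega
  have h3 : ∑ k ∈ Finset.Iic t, (1 + k.val) = (t.val + 1) + ∑ k ∈ Finset.Iic t, k.val := by
    rw [Finset.sum_add_distrib, Finset.sum_const, Fin.card_Iic]
    simp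
  rw [Pk, filter_le]
  omega

theorem mu_in {κ : Equiv.Perm (Fin n)} {t : Fin n} (ht : t ∈ En κ) : muK κ t = 0 := by
  have := mem_En.mp ht
  simp only [muK]
  omega

/-- The values of the partial sums. -/
theorem Pk_value {κ : Equiv.Perm (Fin n)} (hκ : Hess κ) (t : Fin n) :
    Pk κ t = 0 ∨ ∃ s : Fin n, s ∉ En κ ∧ s.val + 1 = Pk κ t := by
  have key : ∀ m : ℕ, ∀ t : Fin n, t.val = m → (Pk κ t = 0 ∨ ∃ s : Fin n, s ∉ En κ ∧ s.val + 1 = Pk κ t) := by
    intro m
    induction m with
    | zero =>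
      intro t ht
      by_cases hin : t ∈ En κ
      · left
        rw [Pk]
        apply Finset.sum_eq_zero
        intro k hk
        simp only [Finset.mem_filter, Finset.mem_univ, true_and] at hk
        have : k = t := Fin.ext (by
          have : k.val ≤ t.val := hk
          omega)
        rw [this]
        exact mu_in hin
      · right
        exact ⟨t, hin, (Pk_not hκ hin).symm⟩
    | succ m ih =>
      intro t ht
      by_cases hin : t ∈ En κ
      · have hlt : m < n := by have := t.2; omega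
        have h1 := ih ⟨m, hlt⟩ rfl
        have h2 : Pk κ t = Pk κ ⟨m, hlt⟩ := by
          rw [Pk, Pk, filter_le, filter_le]
          have h3 : Finset.Iic t = insert t (Finset.Iic (⟨m, hlt⟩ : Fin n)) := by
            ext k
            simp only [Finset.mem_Iic, Finset.mem_insert, Fin.le_def, Fin.ext_iff]
            omega
          rw [h3, Finset.sum_insert (by
            simp only [Finset.mem_Iic, Fin.le_def]
            omega), mu_in hin, zero_add]
        rw [h2]
        exact h1
      · right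
        exact ⟨t, hin, (Pk_not hκ hin).symm⟩
  exact key t.val t rfl

/-- The breakpoints of a parameter. -/
def Jof (n : ℕ) (E : Finset (Fin n)) : Finset ℕ := ((Dn n) \ E).image fun s => s.val + 1

theorem mem_Jof {E : Finset (Fin n)} {a : ℕ} : a ∈ Jof n E ↔ ∃ s : Fin n, s.val + 1 < n ∧ s ∉ E ∧ s.val + 1 = a := by
  simp only [Jof, Finset.mem_image, Finset.mem_sdiff, mem_Dn]
  constructor
  · rintro ⟨s, ⟨h1, h2⟩, h3⟩
    exact ⟨s, h1, h2, h3⟩
  · rintro ⟨s, h1, h2, h3⟩
    exact ⟨s, ⟨h1, h2⟩, h3⟩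

theorem Jof_subset (E : Finset (Fin n)) : Jof n E ⊆ Finset.Ioo 0 n := by
  intro a ha
  obtain ⟨s, h1, -, rfl⟩ := mem_Jof.mp ha
  simp only [Finset.mem_Ioo]
  omega

/-- The block labels. -/
theorem label_lt_iff {κ : Equiv.Perm (Fin n)} (hκ : Hess κ) (i j : Fin n) :
    Cfsg.compLabel (muK κ) j < Cfsg.compLabel (muK κ) i ↔ ∃ a ∈ Jof n (En κ), j.val < a ∧ a ≤ i.val := by
  have hlab : ∀ v : Fin n, Cfsg.compLabel (muK κ) v = (Finset.univ.filter fun t : Fin n => Pk κ t ≤ v.val).card := fun v => rfl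
  rw [hlab, hlab]
  constructor
  · intro h
    have hnot : ¬ (Finset.univ.filter fun t : Fin n => Pk κ t ≤ i.val) ⊆ (Finset.univ.filter fun t : Fin n => Pk κ t ≤ j.val) :=
      fun hs => absurd (Finset.card_le_card hs) (not_le.mpr h)
    obtain ⟨t, ht, htn⟩ := Finset.not_subset.mp hnot
    simp only [Finset.mem_filter, Finset.mem_univ, true_and, not_le] at ht htn
    rcases Pk_value hκ t with h0 | ⟨s, hs, hst⟩
    · omega
    · refine ⟨Pk κ t, mem_Jof.mpr ⟨s, ?_, hs, hst⟩, htn, ht⟩
      have := i.2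
      omega
  · rintro ⟨a, ha, h1, h2⟩
    obtain ⟨s, hs1, hs2, rfl⟩ := mem_Jof.mp ha
    have hP := Pk_not hκ hs2
    have h3 : (Finset.univ.filter fun t : Fin n => Pk κ t ≤ j.val) ⊆ Finset.Iio s := by
      intro t ht
      simp only [Finset.mem_filter, Finset.mem_univ, true_and] at ht
      rw [Finset.mem_Iio]
      by_contra hc
      have := Pk_mono κ (not_lt.mp hc)
      omega
    have h4 : Finset.Iic s ⊆ (Finset.univ.filter fun t : Fin n => Pk κ t ≤ i.val) := by
      intro t ht
      simp only [Finset.mem_filter, Finset.mem_univ, true_and]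
      have := Pk_mono κ (Finset.mem_Iic.mp ht)
      omega
    have h5 := Finset.card_le_card h3
    have h6 := Finset.card_le_card h4
    rw [Fin.card_Iio] at h5
    rw [Fin.card_Iic] at h6
    omega

end Cfsg.Agent.Lib.StVal
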