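/-
Fixed cosets of a parabolic subgroup and chains of invariant subspaces.
-/
import Cfsg.Agent.Lib.StVal.Label
import Cfsg.Agent.Lib.Classical.Flags.Orbits
import Cfsg.Agent.Lib.Classical.MatrixBridge

set_option autoImplicit false
set_option linter.unusedSectionVars false

namespace Cfsg.Agent.Lib.StVal

open Module
open Cfsg.Agent.Lib.Classical.Flags Cfsg.Agent.Lib.Classical.MatrixBridge
open scoped BigOperators MatrixGroups

section extension

variable {F : Type*} [Field F] {M : Type*} [AddCommGroup M] [Module F M] [FiniteDimensional F M]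

/-- Subspaces of the same dimension are moved to each other. -/
theorem exists_equiv_map (B₁ B₂ : Submodule F M) (h : finrank F B₁ = finrank F B₂) :
    ∃ φ : M ≃ₗ[F] M, B₁.map (φ : M →ₗ[F] M) = B₂ := by
  obtain ⟨C₁, h₁⟩ := Submodule.exists_isCompl B₁
  obtain ⟨C₂, h₂⟩ := Submodule.exists_isCompl B₂
  have hc : finrank F C₁ = finrank F C₂ := by
    have e₁ := Submodule.finrank_add_eq_of_isCompl h₁
    have e₂ := Submodule.finrank_add_eq_of_isCompl h₂
    omega
  let φ : M ≃ₗ[F] M := (Submodule.prodEquivOfIsCompl B₁ C₁ h₁).symm.trans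
    (((LinearEquiv.ofFinrankEq B₁ B₂ h).prodCongr (LinearEquiv.ofFinrankEq C₁ C₂ hc)).trans
      (Submodule.prodEquivOfIsCompl B₂ C₂ h₂))
  refine ⟨φ, Submodule.eq_of_le_of_finrank_eq ?_ ?_⟩
  · rintro _ ⟨b, hb, rfl⟩
    show φ b ∈ B₂
    have h3 : (Submodule.prodEquivOfIsCompl B₁ C₁ h₁).symm b = (⟨b, hb⟩, 0) :=
      Submodule.prodEquivOfIsCompl_symm_apply_left B₁ C₁ h₁ ⟨b, hb⟩
    simp only [φ, LinearEquiv.trans_apply, h3]
    simp
  · rw [LinearEquiv.finrank_map_eq, h]

/-- Subspaces of the same dimension containing `X` are moved to each other by an automorphism fixing `X` pointwise. -/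
theorem exists_equiv_fix (X Y₁ Y₂ : Submodule F M) (h₁ : X ≤ Y₁) (h₂ : X ≤ Y₂) (h : finrank F Y₁ = finrank F Y₂) :
    ∃ y : M ≃ₗ[F] M, (∀ v ∈ X, y v = v) ∧ Y₁.map (y : M →ₗ[F] M) = Y₂ := by
  obtain ⟨A, hA⟩ := Submodule.exists_isCompl X
  have key : ∀ Y : Submodule F M, X ≤ Y → finrank F Y = finrank F X + finrank F (Y.comap A.subtype) := by
    intro Y hY
    have h1 : finrank F (Y.comap A.subtype) = finrank F (Y ⊓ A : Submodule F M) := by
      rw [← Submodule.finrank_map_subtype_eq, Submodule.map_comap_subtype, inf_comm]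
    have h2 := Submodule.finrank_sup_add_finrank_inf_eq X (Y ⊓ A)
    have h3 : X ⊓ (Y ⊓ A) = ⊥ := by
      rw [eq_bot_iff]
      intro v hv
      have h4 : v ∈ X ⊓ A := ⟨hv.1, hv.2.2⟩
      rw [hA.inf_eq_bot] at h4
      exact h4
    have h5 : X ⊔ (Y ⊓ A) = Y := by
      rw [inf_comm, ← sup_inf_assoc_of_le A hY, hA.sup_eq_top, top_inf_eq]
    rw [h3, h5, finrank_bot, add_zero] at h2
    omega
  have hB : finrank F (Y₁.comap A.subtype) = finrank F (Y₂.comap A.subtype) := by
    have e₁ := key Y₁ h₁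
    have e₂ := key Y₂ h₂
    omega
  obtain ⟨φ, hφ⟩ := exists_equiv_map _ _ hB
  let y : M ≃ₗ[F] M := (Submodule.prodEquivOfIsCompl X A hA).symm.trans
    (((LinearEquiv.refl F X).prodCongr φ).trans (Submodule.prodEquivOfIsCompl X A hA))
  have hdec : ∀ (u : X) (a : A), y (u + a) = u + (φ a : A) := by
    intro u a
    have h3 : (Submodule.prodEquivOfIsCompl X A hA) (u, a) = (u : M) + a := by simp
    have h4 : (Submodule.prodEquivOfIsCompl X A hA).symm ((u : M) + a) = (u, a) := by
      rw [← h3, LinearEquiv.symm_apply_apply]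
    simp only [y, LinearEquiv.trans_apply, h4]
    simp
  refine ⟨y, ?_, ?_⟩
  · intro v hv
    have := hdec ⟨v, hv⟩ 0
    simpa using this
  · apply Submodule.eq_of_le_of_finrank_eq
    · rintro _ ⟨v, hv, rfl⟩
      have hv' : v ∈ (⊤ : Submodule F M) := trivial
      rw [← hA.sup_eq_top, Submodule.mem_sup] at hv'
      obtain ⟨u, hu, a, ha, rfl⟩ := hv'
      have h5 := hdec ⟨u, hu⟩ ⟨a, ha⟩
      have ha1 : (⟨a, ha⟩ : A) ∈ Y₁.comap A.subtype := by
        show a ∈ Y₁
        have : a = (u + a) - u := by abel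
        rw [this]
        exact Y₁.sub_mem hv (h₁ hu)
      have ha2 : φ ⟨a, ha⟩ ∈ Y₂.comap A.subtype := by
        rw [← hφ]
        exact ⟨_, ha1, rfl⟩
      show y (u + a) ∈ Y₂
      have h6 : y (u + a) = u + (φ ⟨a, ha⟩ : A) := h5
      rw [h6]
      exact Y₂.add_mem (h₂ hu) ha2
    · rw [LinearEquiv.finrank_map_eq, h]

end extension

variable {n : ℕ} {F : Type*} [Field F]

/-- The standard subspaces. -/
def Cd (F : Type*) [Field F] (a : ℕ) : Submodule F (Fin n → F) := cs F {i : Fin n | i.val < a}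

theorem mem_Cd {a : ℕ} {v : Fin n → F} : v ∈ Cd F a ↔ ∀ i : Fin n, a ≤ i.val → v i = 0 := by
  simp only [Cd, mem_cs, Set.mem_ofPred_eq, not_lt]

theorem Cd_mono {a b : ℕ} (h : a ≤ b) : (Cd F a : Submodule F (Fin n → F)) ≤ Cd F b := by
  intro v hv
  rw [mem_Cd] at hv ⊢
  exact fun i hi => hv i (h.trans hi)

theorem finrank_Cd {a : ℕ} (h : a ≤ n) : finrank F (Cd F a : Submodule F (Fin n → F)) = a := by
  have h1 := finrank_cs (F := F) (Finset.univ.filter fun i : Fin n => i.val < a)
  have h2 : ((Finset.univ.filter fun i : Fin n => i.val < a : Finset (Fin n)) : Set (Fin n)) = {i : Fin n | i.val < a} := by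
    ext i
    simp
  rw [h2] at h1
  rw [Cd, h1, Fin.card_filter_val_lt, min_eq_right h]

theorem lin_mul_apply (g g' : GL (Fin n) F) (v : Fin n → F) : lin (g * g') v = lin g (lin g' v) := by
  rw [lin_mul]
  rfl

theorem finrank_map_lin (g : GL (Fin n) F) (U : Submodule F (Fin n → F)) : finrank F (U.map (lin g)) = finrank F U :=
  LinearEquiv.finrank_eq (Submodule.equivMapOfInjective (lin g) (lin_injective g) U).symm

theorem lin_symm (y : (Fin n → F) ≃ₗ[F] (Fin n → F)) (v : Fin n → F) : lin (glToLin.symm y) v = y v :=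
  glToLin_symm_mulVec y v

theorem map_lin_mul (g h : GL (Fin n) F) (U : Submodule F (Fin n → F)) :
    U.map (lin (g * h)) = (U.map (lin h)).map (lin g) := by
  rw [lin_mul, Submodule.map_comp]

theorem map_lin_one (U : Submodule F (Fin n → F)) : U.map (lin (1 : GL (Fin n) F)) = U := by
  rw [lin_one, Submodule.map_id]

theorem map_lin_inv {g : GL (Fin n) F} {U U' : Submodule F (Fin n → F)} (h : U.map (lin g) = U') :
    U'.map (lin g⁻¹) = U := by
  rw [← h, ← map_lin_mul, inv_mul_cancel, map_lin_one]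

theorem mem_par_iff {κ : Equiv.Perm (Fin n)} (hκ : Hess κ) (g : GL (Fin n) F) :
    g ∈ Cfsg.parabolicGL n F (muK κ) ↔ ∀ a ∈ Jof n (En κ), (Cd F a : Submodule F (Fin n → F)).map (lin g) = Cd F a := by
  rw [parabolicGL_eq, mem_Par]
  constructor
  · intro hg a ha
    apply Submodule.eq_of_le_of_finrank_eq
    · rintro _ ⟨v, hv, rfl⟩
      rw [SetLike.mem_coe, mem_Cd] at hv
      rw [mem_Cd]
      intro i hi
      rw [lin_apply]
      refine Finset.sum_eq_zero fun j _ => ?_
      by_cases hj : a ≤ j.val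
      · rw [hv j hj, mul_zero]
      · rw [hg ((label_lt_iff hκ i j).mpr ⟨a, ha, by omega, hi⟩), zero_mul]
    · exact finrank_map_lin g _
  · intro hg i j hij
    obtain ⟨a, ha, hja, hai⟩ := (label_lt_iff hκ i j).mp hij
    have h1 : (Pi.single j 1 : Fin n → F) ∈ (Cd F a : Submodule F (Fin n → F)) := by
      rw [mem_Cd]
      intro k hk
      rw [Pi.single_apply, if_neg]
      rintro rfl
      omega
    have h2 : lin g (Pi.single j 1) ∈ (Cd F a : Submodule F (Fin n → F)) := by
      rw [← hg a ha]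
      exact Submodule.mem_map_of_mem h1
    rw [mem_Cd] at h2
    have h3 := h2 i hai
    rw [lin_apply, Finset.sum_eq_single j] at h3
    · simpa using h3
    · intro k _ hk
      rw [Pi.single_eq_of_ne hk, mul_zero]
    · simp

theorem Cd_zero : (Cd F 0 : Submodule F (Fin n → F)) = ⊥ := by
  rw [eq_bot_iff]
  intro v hv
  rw [mem_Cd] at hv
  rw [Submodule.mem_bot]
  ext i
  exact hv i (Nat.zero_le _)

/-- Every flag of the right dimensions is a translate of the standard one. -/
theorem exists_flag (J : Finset ℕ) (W : ℕ → Submodule F (Fin n → F)) (hJ : ∀ a ∈ J, a ≤ n)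
    (hdim : ∀ a ∈ J, finrank F (W a) = a) (hmono : ∀ a ∈ J, ∀ b ∈ J, a ≤ b → W a ≤ W b) :
    ∃ x : GL (Fin n) F, ∀ a ∈ J, (Cd F a).map (lin x) = W a := by
  induction J using Finset.induction_on_max with
  | empty => exact ⟨1, by simp⟩
  | insert m J' hm ih =>
    obtain ⟨x', hx'⟩ := ih (fun a ha => hJ a (Finset.mem_insert_of_mem ha))
      (fun a ha => hdim a (Finset.mem_insert_of_mem ha))
      (fun a ha b hb => hmono a (Finset.mem_insert_of_mem ha) b (Finset.mem_insert_of_mem hb))
    have hmJ : m ∈ insert m J' := Finset.mem_insert_self _ _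
    let a' := J'.sup id
    have ha'm : a' ≤ m := Finset.sup_le fun a ha => (hm a ha).le
    let X : Submodule F (Fin n → F) := (Cd F a').map (lin x')
    have hX1 : X ≤ (Cd F m).map (lin x') := Submodule.map_mono (Cd_mono ha'm)
    have hX2 : X ≤ W m := by
      by_cases hJ' : J'.Nonempty
      · obtain ⟨b, hb, hab⟩ := Finset.exists_mem_eq_sup J' hJ' id
        have : X = W b := by
          simp only [X]
          rw [show a' = b from hab, hx' b hb]
        rw [this]
        exact hmono b (Finset.mem_insert_of_mem hb) m hmJ (hm b hb).le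
      · rw [Finset.not_nonempty_iff_eq_empty] at hJ'
        have : a' = 0 := by simp [a', hJ']
        simp only [X]
        rw [this, Cd_zero, Submodule.map_bot]
        exact bot_le
    have hdimeq : finrank F ((Cd F m).map (lin x') : Submodule F (Fin n → F)) = finrank F (W m) := by
      rw [finrank_map_lin, finrank_Cd (hJ m hmJ), hdim m hmJ]
    obtain ⟨y, hy1, hy2⟩ := exists_equiv_fix X _ _ hX1 hX2 hdimeq
    refine ⟨glToLin.symm y * x', ?_⟩
    have hmap : ∀ U : Submodule F (Fin n → F), U.map (lin (glToLin.symm y * x')) = (U.map (lin x')).map (y : (Fin n → F) →ₗ[F] (Fin n → F)) := by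
      intro U
      rw [map_lin_mul]
      have : lin (glToLin.symm y) = (y : (Fin n → F) →ₗ[F] (Fin n → F)) := LinearMap.ext fun v => lin_symm y v
      rw [this]
    intro a ha
    rw [hmap]
    rcases Finset.mem_insert.mp ha with rfl | ha
    · exact hy2
    · rw [hx' a ha]
      have hle : W a ≤ X := by
        rw [← hx' a ha]
        exact Submodule.map_mono (Cd_mono (Finset.le_sup (f := id) ha))
      ext v
      constructor
      · rintro ⟨u, hu, rfl⟩
        rw [show (y : (Fin n → F) →ₗ[F] (Fin n → F)) u = y u from rfl, hy1 u (hle hu)]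
        exact hu
      · intro hv
        exact ⟨v, hv, hy1 v (hle hv)⟩

open scoped _root_.Classical in
/-- The standard translates of the chain of type `J`. -/
noncomputable def flagOf (J : Finset ℕ) (y : GL (Fin n) F) : Finset (Submodule F (Fin n → F)) :=
  J.image fun a => (Cd F a).map (lin y)

theorem flagOf_chain (J : Finset ℕ) (y : GL (Fin n) F) :
    IsChain (· ≤ ·) ((flagOf J y : Finset (Submodule F (Fin n → F))) : Set (Submodule F (Fin n → F))) := by
  classical
  rintro _ hU _ hU' -
  simp only [flagOf, Finset.coe_image, Set.mem_image, Finset.mem_coe] at hU hU'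
  obtain ⟨a, _, rfl⟩ := hU
  obtain ⟨b, _, rfl⟩ := hU'
  rcases le_total a b with h | h
  · exact Or.inl (Submodule.map_mono (Cd_mono h))
  · exact Or.inr (Submodule.map_mono (Cd_mono h))

theorem flagOf_dims (J : Finset ℕ) (hJ : ∀ a ∈ J, a ≤ n) (y : GL (Fin n) F) :
    (flagOf J y).image (fun U : Submodule F (Fin n → F) => finrank F U) = J := by
  classical
  ext a
  simp only [flagOf, Finset.mem_image, exists_exists_and_eq_and, finrank_map_lin]
  constructor
  · rintro ⟨b, hb, rfl⟩
    rw [finrank_Cd (hJ b hb)]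
    exact hb
  · intro ha
    exact ⟨a, ha, finrank_Cd (hJ a ha)⟩

open scoped _root_.Classical in
/-- Chains of `x`-invariant subspaces with dimension set `J`. -/
noncomputable def Ch [Fintype F] (x : GL (Fin n) F) (J : Finset ℕ) : Finset (Finset (Submodule F (Fin n → F))) :=
  haveI : Fintype (Submodule F (Fin n → F)) := Fintype.ofFinite _
  Finset.univ.filter fun S => IsChain (· ≤ ·) (S : Set (Submodule F (Fin n → F))) ∧
    (∀ U ∈ S, U.map (lin x) = U) ∧ S.image (fun U : Submodule F (Fin n → F) => finrank F U) = J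

theorem mem_Ch [Fintype F] {x : GL (Fin n) F} {J : Finset ℕ} {S : Finset (Submodule F (Fin n → F))} :
    S ∈ Ch x J ↔ IsChain (· ≤ ·) (S : Set (Submodule F (Fin n → F))) ∧
      (∀ U ∈ S, U.map (lin x) = U) ∧ S.image (fun U : Submodule F (Fin n → F) => finrank F U) = J := by
  simp [Ch]

theorem chain_eq_of_finrank {S : Set (Submodule F (Fin n → F))} (hS : IsChain (· ≤ ·) S) {U U' : Submodule F (Fin n → F)}
    (hU : U ∈ S) (hU' : U' ∈ S) (h : finrank F U = finrank F U') : U = U' := by
  rcases hS.total hU hU' with h1 | h1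
  · exact Submodule.eq_of_le_of_finrank_eq h1 h
  · exact (Submodule.eq_of_le_of_finrank_eq h1 h.symm).symm

theorem flagOf_mk_eq {J : Finset ℕ} (H : Subgroup (GL (Fin n) F))
    (hH : ∀ g, g ∈ H ↔ ∀ a ∈ J, (Cd F a : Submodule F (Fin n → F)).map (lin g) = Cd F a) (y : GL (Fin n) F) (h : H) :
    flagOf J (y * (h : GL (Fin n) F)) = flagOf J y := by
  classical
  simp only [flagOf]
  refine Finset.image_congr fun a ha => ?_
  show (Cd F a).map (lin (y * (h : GL (Fin n) F))) = (Cd F a).map (lin y)
  rw [map_lin_mul, (hH _).mp h.2 a ha]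

/-- Fixed cosets of a flag stabiliser are the invariant chains of its type. -/
theorem card_fix [Fintype F] (J : Finset ℕ) (hJ : ∀ a ∈ J, a ≤ n) (H : Subgroup (GL (Fin n) F))
    (hH : ∀ g, g ∈ H ↔ ∀ a ∈ J, (Cd F a : Submodule F (Fin n → F)).map (lin g) = Cd F a) (x : GL (Fin n) F) :
    Nat.card (MulAction.fixedBy (GL (Fin n) F ⧸ H) x) = (Ch x J).card := by
  classical
  have hmk : ∀ y : GL (Fin n) F, flagOf J (QuotientGroup.mk y : GL (Fin n) F ⧸ H).out = flagOf J y := by
    intro y
    obtain ⟨h, hh⟩ := QuotientGroup.mk_out_eq_mul H y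
    rw [hh, flagOf_mk_eq H hH]
  have hfix : ∀ y : GL (Fin n) F, (x • (QuotientGroup.mk y : GL (Fin n) F ⧸ H) = QuotientGroup.mk y) ↔
      ∀ U ∈ flagOf J y, U.map (lin x) = U := by
    intro y
    have h1 : x • (QuotientGroup.mk y : GL (Fin n) F ⧸ H) = QuotientGroup.mk (x * y) := rfl
    rw [h1, QuotientGroup.eq, hH]
    simp only [flagOf, Finset.mem_image, forall_exists_index, and_imp, forall_apply_eq_imp_iff₂]
    refine forall₂_congr fun a ha => ?_
    have h2 : (x * y)⁻¹ * y = (x * y)⁻¹ * y := rfl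
    constructor
    · intro h3
      have h4 := congrArg (fun U => U.map (lin (x * y))) h3
      simp only [← map_lin_mul] at h4
      have h5 : x * y * ((x * y)⁻¹ * y) = y := by group
      rw [h5] at h4
      rw [← map_lin_mul]
      exact h4.symm
    · intro h3
      rw [← map_lin_mul] at h3
      have h4 := congrArg (fun U => U.map (lin (x * y)⁻¹)) h3
      simp only [← map_lin_mul] at h4
      rw [inv_mul_cancel, map_lin_one] at h4
      exact h4.symm
  rw [← Nat.card_eq_finsetCard]
  refine Nat.card_eq_of_bijective (fun Q => ⟨flagOf J Q.1.out, ?_⟩) ⟨?_, ?_⟩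
  · have hQ : x • Q.1 = Q.1 := Q.2
    rw [mem_Ch]
    refine ⟨flagOf_chain J _, ?_, flagOf_dims J hJ _⟩
    rw [← hfix, QuotientGroup.out_eq']
    exact hQ
  · rintro ⟨Q, hQ⟩ ⟨Q', hQ'⟩ h
    have h1 : flagOf J Q.out = flagOf J Q'.out := congrArg Subtype.val h
    apply Subtype.ext
    show Q = Q'
    rw [← QuotientGroup.out_eq' Q, ← QuotientGroup.out_eq' Q', QuotientGroup.eq, hH]
    intro a ha
    have h2 : (Cd F a).map (lin Q.out) ∈ flagOf J Q'.out := by
      rw [← h1]
      exact Finset.mem_image_of_mem _ ha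
    obtain ⟨b, hb, hab⟩ := Finset.mem_image.mp h2
    have h3 : a = b := by
      have := congrArg (fun U : Submodule F (Fin n → F) => finrank F U) hab
      simp only [finrank_map_lin] at this
      rw [finrank_Cd (hJ a ha), finrank_Cd (hJ b hb)] at this
      exact this.symm
    subst h3
    rw [map_lin_mul, hab, ← map_lin_mul, inv_mul_cancel, map_lin_one]
  · rintro ⟨S, hS⟩
    rw [mem_Ch] at hS
    obtain ⟨hc, hinv, hd⟩ := hS
    have hex : ∀ a ∈ J, ∃ U ∈ S, finrank F U = a := by
      intro a ha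
      rw [← hd] at ha
      obtain ⟨U, hU, rfl⟩ := Finset.mem_image.mp ha
      exact ⟨U, hU, rfl⟩
    let W : ℕ → Submodule F (Fin n → F) := fun a => if h : ∃ U ∈ S, finrank F U = a then h.choose else ⊥
    have hW : ∀ a ∈ J, W a ∈ S ∧ finrank F (W a) = a := by
      intro a ha
      have h := hex a ha
      have h0 : W a = h.choose := dif_pos h
      rw [h0]
      exact h.choose_spec
    obtain ⟨y, hy⟩ := exists_flag J W hJ (fun a ha => (hW a ha).2) (by
      intro a ha b hb hab
      rcases hc.total (hW a ha).1 (hW b hb).1 with h1 | h1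
      · exact h1
      · have h2 := Submodule.finrank_mono h1
        rw [(hW a ha).2, (hW b hb).2] at h2
        have h3 : a = b := le_antisymm hab h2
        subst h3
        exact le_refl _)
    have hfl : flagOf J y = S := by
      ext U
      simp only [flagOf, Finset.mem_image]
      constructor
      · rintro ⟨a, ha, rfl⟩
        rw [hy a ha]
        exact (hW a ha).1
      · intro hU
        have ha : finrank F U ∈ J := by
          rw [← hd]
          exact Finset.mem_image_of_mem _ hU
        refine ⟨_, ha, ?_⟩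
        rw [hy _ ha]
        exact chain_eq_of_finrank hc (hW _ ha).1 hU (hW _ ha).2
    refine ⟨⟨QuotientGroup.mk y, ?_⟩, ?_⟩
    · rw [MulAction.mem_fixedBy, hfix, hfl]
      exact hinv
    · apply Subtype.ext
      show flagOf J (QuotientGroup.mk y : GL (Fin n) F ⧸ H).out = S
      rw [hmk, hfl]

end Cfsg.Agent.Lib.StVal
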