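/-
The alternating sum `∑_{U ≤ W} (-1)^dim U Q^C(dim U, 2)` over subspaces of a vector space over a finite field vanishes.
-/
import Mathlib

set_option autoImplicit false
set_option linter.unusedSectionVars false

namespace Cfsg.Agent.Lib.StVal

open Module
open scoped BigOperators _root_.Classical

/-- The weight of a subspace of dimension `k`. -/
def gmW (Q k : ℕ) : ℤ := (-1) ^ k * (Q : ℤ) ^ (k.choose 2)

theorem gmW_zero (Q : ℕ) : gmW Q 0 = 1 := by simp [gmW]

theorem gmW_succ (Q k : ℕ) : gmW Q (k + 1) = -((Q : ℤ) ^ k * gmW Q k) := by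
  simp only [gmW]
  rw [show (k + 1).choose 2 = k + k.choose 2 by
    rw [show (2 : ℕ) = 1 + 1 from rfl, Nat.choose_succ_succ' k 1, Nat.choose_one_right], pow_add, pow_succ]
  ring

variable {E M : Type*} [Field E] [AddCommGroup M] [Module E M] [FiniteDimensional E M]

theorem sup_span_inf {W H U : Submodule E M} {v : M} (hW : H ⊔ Submodule.span E {v} = W) (hU : U ≤ W) (hv : v ∈ U) :
    (U ⊓ H) ⊔ Submodule.span E {v} = U := by
  have h1 : Submodule.span E {v} ≤ U := (Submodule.span_singleton_le_iff_mem _ _).2 hv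
  calc (U ⊓ H) ⊔ Submodule.span E {v} = Submodule.span E {v} ⊔ (H ⊓ U) := by rw [sup_comm, inf_comm]
    _ = (Submodule.span E {v} ⊔ H) ⊓ U := (sup_inf_assoc_of_le _ h1).symm
    _ = U := by rw [sup_comm, hW]; exact inf_eq_right.2 hU

theorem sup_span_inf' {H U' : Submodule E M} {v : M} (hvH : v ∉ H) (hU' : U' ≤ H) :
    (U' ⊔ Submodule.span E {v}) ⊓ H = U' := by
  have hv0 : v ≠ 0 := fun h => hvH (h ▸ H.zero_mem)
  have h1 : H ⊓ Submodule.span E {v} = ⊥ := ((Submodule.disjoint_span_singleton' hv0).2 hvH).eq_bot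
  rw [sup_inf_assoc_of_le _ hU', inf_comm, h1, sup_bot_eq]

theorem finrank_sup_span {H U' : Submodule E M} {v : M} (hvH : v ∉ H) (hU' : U' ≤ H) :
    finrank E ↥(U' ⊔ Submodule.span E {v}) = finrank E U' + 1 := by
  have hv0 : v ≠ 0 := fun h => hvH (h ▸ H.zero_mem)
  have h1 : H ⊓ Submodule.span E {v} = ⊥ := ((Submodule.disjoint_span_singleton' hv0).2 hvH).eq_bot
  have h2 : U' ⊓ Submodule.span E {v} = ⊥ := by
    rw [eq_bot_iff, ← h1]
    exact inf_le_inf_right _ hU'
  have h3 := Submodule.finrank_sup_add_finrank_inf_eq U' (Submodule.span E {v})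
  rw [h2, finrank_bot, add_zero, finrank_span_singleton hv0] at h3
  exact h3

theorem sum_containing [Fintype (Submodule E M)] (G : Submodule E M → ℤ) {W H : Submodule E M} {v : M}
    (hvH : v ∉ H) (hW : H ⊔ Submodule.span E {v} = W) :
    ∑ U ∈ Finset.univ.filter (fun U : Submodule E M => U ≤ W ∧ v ∈ U), G (U ⊓ H) =
      ∑ U' ∈ Finset.univ.filter (fun U : Submodule E M => U ≤ H), G U' := by
  have hHW : H ≤ W := hW ▸ le_sup_left
  have hvW : Submodule.span E {v} ≤ W := hW ▸ le_sup_right
  refine Finset.sum_bij' (fun U _ => U ⊓ H) (fun U' _ => U' ⊔ Submodule.span E {v}) ?_ ?_ ?_ ?_ ?_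
  · intro U _
    simp
  · intro U' hU'
    simp only [Finset.mem_filter, Finset.mem_univ, true_and] at hU' ⊢
    refine ⟨sup_le (hU'.trans hHW) hvW, Submodule.mem_sup_right (Submodule.mem_span_singleton_self _)⟩
  · intro U hU
    simp only [Finset.mem_filter, Finset.mem_univ, true_and] at hU
    exact sup_span_inf hW hU.1 hU.2
  · intro U' hU'
    simp only [Finset.mem_filter, Finset.mem_univ, true_and] at hU'
    exact sup_span_inf' hvH hU'
  · intro U hU
    rfl

theorem gm_sum [Fintype E] [Fintype (Submodule E M)] {Q : ℕ} (hQ : Fintype.card E = Q) (W : Submodule E M) (hW : W ≠ ⊥) :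
    ∑ U ∈ Finset.univ.filter (fun U : Submodule E M => U ≤ W), gmW Q (finrank E U) = 0 := by
  haveI : Finite M := Module.finite_of_finite E
  letI : Fintype M := Fintype.ofFinite M
  induction hm : finrank E W using Nat.strong_induction_on generalizing W with
  | _ m ih =>
  obtain ⟨u, huW, hu0⟩ := Submodule.exists_mem_ne_zero_of_ne_bot hW
  obtain ⟨C, hC⟩ := Submodule.exists_isCompl (Submodule.span E {u})
  have huW' : Submodule.span E {u} ≤ W := (Submodule.span_singleton_le_iff_mem _ _).2 huW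
  let H : Submodule E M := W ⊓ C
  have hHW' : H ≤ W := inf_le_left
  have huC : u ∉ C := by
    intro h
    have h1 : u ∈ Submodule.span E {u} ⊓ C := ⟨Submodule.mem_span_singleton_self _, h⟩
    rw [hC.inf_eq_bot] at h1
    exact hu0 h1
  have huH : u ∉ H := fun h => huC h.2
  have hsup : H ⊔ Submodule.span E {u} = W := by
    rw [sup_comm, show H = C ⊓ W from inf_comm _ _, ← sup_inf_assoc_of_le C huW', hC.sup_eq_top, top_inf_eq]
  have hdimH : finrank E H + 1 = finrank E W := by
    have := finrank_sup_span (H := H) huH le_rfl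
    rw [hsup] at this
    exact this.symm
  have hsup_w : ∀ w ∈ H, H ⊔ Submodule.span E {u + w} = W := by
    intro w hw
    apply le_antisymm
    · exact sup_le hHW' ((Submodule.span_singleton_le_iff_mem _ _).2 (W.add_mem huW (hHW' hw)))
    · conv_lhs => rw [← hsup]
      refine sup_le le_sup_left ((Submodule.span_singleton_le_iff_mem _ _).2 ?_)
      have h5 : (u + w) - w ∈ H ⊔ Submodule.span E {u + w} :=
        Submodule.sub_mem _ (Submodule.mem_sup_right (Submodule.mem_span_singleton_self _)) (Submodule.mem_sup_left hw)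
      simpa using h5
  have hnotH : ∀ w ∈ H, u + w ∉ H := by
    intro w hw h
    apply huH
    have : u = (u + w) - w := by abel
    rw [this]
    exact H.sub_mem h hw
  have hex : ∀ U : Submodule E M, U ≤ W → ¬ U ≤ H → ∃ w, w ∈ H ∧ u + w ∈ U := by
    intro U hU hnot
    obtain ⟨x, hxU, hxH⟩ := SetLike.not_le_iff_exists.mp hnot
    have hxW := hU hxU
    rw [← hsup, Submodule.mem_sup] at hxW
    obtain ⟨h, hh, z, hz, rfl⟩ := hxW
    obtain ⟨c, rfl⟩ := Submodule.mem_span_singleton.mp hz
    have hc : c ≠ 0 := by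
      rintro rfl
      apply hxH
      simpa using hh
    refine ⟨c⁻¹ • h, H.smul_mem _ hh, ?_⟩
    have : u + c⁻¹ • h = c⁻¹ • (h + c • u) := by
      rw [smul_add, smul_smul, inv_mul_cancel₀ hc, one_smul, add_comm]
    rw [this]
    exact U.smul_mem _ hxU
  have hcount : ∀ U : Submodule E M, U ≤ W → ¬ U ≤ H →
      (Finset.univ.filter (fun w : M => w ∈ H ∧ u + w ∈ U)).card = Q ^ (finrank E ↥(U ⊓ H)) := by
    intro U hU hnot
    obtain ⟨w₀, hw₀H, hw₀U⟩ := hex U hU hnot
    have h1 : (Finset.univ.filter (fun w : M => w ∈ H ∧ u + w ∈ U)).card =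
        (Finset.univ.filter (fun z : M => z ∈ U ⊓ H)).card := by
      refine Finset.card_nbij' (fun w => w - w₀) (fun z => z + w₀) ?_ ?_ ?_ ?_
      · intro w hw
        simp only [Finset.coe_filter, Finset.mem_univ, true_and, Set.mem_ofPred_eq] at hw ⊢
        refine ⟨?_, H.sub_mem hw.1 hw₀H⟩
        have : w - w₀ = (u + w) - (u + w₀) := by abel
        rw [this]
        exact U.sub_mem hw.2 hw₀U
      · intro z hz
        simp only [Finset.coe_filter, Finset.mem_univ, true_and, Set.mem_ofPred_eq] at hz ⊢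
        refine ⟨H.add_mem hz.2 hw₀H, ?_⟩
        have : u + (z + w₀) = z + (u + w₀) := by abel
        rw [this]
        exact U.add_mem hz.1 hw₀U
      · intro w _
        simp
      · intro z _
        simp
    have h2 : Nat.card ↥(U ⊓ H) = (Finset.univ.filter (fun z : M => z ∈ U ⊓ H)).card :=
      Nat.subtype_card _ (by simp)
    have h3 : Nat.card ↥(U ⊓ H) = Q ^ finrank E ↥(U ⊓ H) := by
      rw [Module.natCard_eq_pow_finrank (K := E) (V := ↥(U ⊓ H)), Nat.card_eq_fintype_card, hQ]
    rw [h1, ← h2, h3]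
  have hdim : ∀ U : Submodule E M, U ≤ W → ¬ U ≤ H → finrank E U = finrank E ↥(U ⊓ H) + 1 := by
    intro U hU hnot
    obtain ⟨w₀, hw₀H, hw₀U⟩ := hex U hU hnot
    have h1 := sup_span_inf (hsup_w w₀ hw₀H) hU hw₀U
    have h2 := finrank_sup_span (hnotH w₀ hw₀H) (inf_le_right : U ⊓ H ≤ H)
    rw [h1] at h2
    exact h2
  -- the sum over subspaces not below `H`
  have hout : ∑ U ∈ Finset.univ.filter (fun U : Submodule E M => U ≤ W ∧ ¬ U ≤ H), gmW Q (finrank E U) =
      - ((Finset.univ.filter (fun w : M => w ∈ H)).card : ℤ) *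
        ∑ U ∈ Finset.univ.filter (fun U : Submodule E M => U ≤ H), gmW Q (finrank E U) := by
    have h1 : ∀ U ∈ Finset.univ.filter (fun U : Submodule E M => U ≤ W ∧ ¬ U ≤ H), gmW Q (finrank E U) =
        - ∑ w ∈ Finset.univ.filter (fun w : M => w ∈ H ∧ u + w ∈ U), gmW Q (finrank E ↥(U ⊓ H)) := by
      intro U hU
      simp only [Finset.mem_filter, Finset.mem_univ, true_and] at hU
      rw [Finset.sum_const, hcount U hU.1 hU.2, hdim U hU.1 hU.2, gmW_succ, nsmul_eq_mul]
      push_cast
      rfl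
    rw [Finset.sum_congr rfl h1, Finset.sum_neg_distrib, neg_mul, neg_inj, Finset.sum_comm' (t' := Finset.univ.filter (fun w : M => w ∈ H))
      (s' := fun w => Finset.univ.filter (fun U : Submodule E M => U ≤ W ∧ u + w ∈ U))]
    · have h2 : ∀ w ∈ Finset.univ.filter (fun w : M => w ∈ H),
          ∑ U ∈ Finset.univ.filter (fun U : Submodule E M => U ≤ W ∧ u + w ∈ U), gmW Q (finrank E ↥(U ⊓ H)) =
            ∑ U ∈ Finset.univ.filter (fun U : Submodule E M => U ≤ H), gmW Q (finrank E U) := by
        intro w hw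
        simp only [Finset.mem_filter, Finset.mem_univ, true_and] at hw
        exact sum_containing (fun U => gmW Q (finrank E U)) (hnotH w hw) (hsup_w w hw)
      rw [Finset.sum_congr rfl h2, Finset.sum_const, nsmul_eq_mul]
    · intro U w
      simp only [Finset.mem_filter, Finset.mem_univ, true_and]
      constructor
      · rintro ⟨⟨h1, _⟩, h3, h4⟩
        exact ⟨⟨h1, h4⟩, h3⟩
      · rintro ⟨⟨h1, h2⟩, h3⟩
        exact ⟨⟨h1, fun h => hnotH w h3 (h h2)⟩, h3, h2⟩
  have hsplit : ∑ U ∈ Finset.univ.filter (fun U : Submodule E M => U ≤ W), gmW Q (finrank E U) =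
      ∑ U ∈ Finset.univ.filter (fun U : Submodule E M => U ≤ H), gmW Q (finrank E U) +
        ∑ U ∈ Finset.univ.filter (fun U : Submodule E M => U ≤ W ∧ ¬ U ≤ H), gmW Q (finrank E U) := by
    rw [← Finset.sum_filter_add_sum_filter_not (Finset.univ.filter (fun U : Submodule E M => U ≤ W)) (fun U => U ≤ H),
      Finset.filter_filter, Finset.filter_filter]
    congr 2
    ext U
    simp only [Finset.mem_filter, Finset.mem_univ, true_and]
    exact ⟨fun h => h.2, fun h => ⟨h.trans hHW', h⟩⟩
  rw [hsplit, hout]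
  by_cases hH : H = ⊥
  · have : Finset.univ.filter (fun w : M => w ∈ H) = {0} := by
      ext w
      simp [hH]
    rw [this]
    simp
  · have := ih (finrank E H) (by omega) H hH rfl
    rw [this]
    simp

end Cfsg.Agent.Lib.StVal
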