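/-
Invariant subspaces of an endomorphism killed by an irreducible polynomial: the alternating sum vanishes.
-/
import Cfsg.Agent.Lib.StVal.GM

set_option autoImplicit false
set_option linter.unusedSectionVars false

namespace Cfsg.Agent.Lib.StVal

open Polynomial Module
open scoped BigOperators _root_.Classical

universe u v w

variable {F : Type u} {V : Type v} [Field F] [AddCommGroup V] [Module F V]

/-- Invariant subspaces. -/
def TInv (T : V →ₗ[F] V) (U : Submodule F V) : Prop := ∀ v ∈ U, T v ∈ U

theorem aeval_mul_apply (T : V →ₗ[F] V) (p r : F[X]) (v : V) : aeval T (p * r) v = aeval T p (aeval T r v) := by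
  rw [map_mul]
  rfl

theorem TInv.aeval {T : V →ₗ[F] V} {U : Submodule F V} (h : TInv T U) (p : F[X]) {v : V} (hv : v ∈ U) :
    Polynomial.aeval T p v ∈ U := by
  induction p using Polynomial.induction_on generalizing v with
  | C a =>
    simp only [aeval_C, Module.algebraMap_end_apply]
    exact U.smul_mem a hv
  | add p r hp hr =>
    rw [map_add, LinearMap.add_apply]
    exact U.add_mem (hp hv) (hr hv)
  | monomial n a hh =>
    have e : C a * X ^ (n + 1) = C a * X ^ n * X := by ring
    rw [e, aeval_mul_apply, aeval_X]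
    exact hh (h v hv)

theorem aeval_comm (T : V →ₗ[F] V) (p r : F[X]) (v : V) :
    Polynomial.aeval T p (Polynomial.aeval T r v) = Polynomial.aeval T r (Polynomial.aeval T p v) := by
  rw [← aeval_mul_apply, ← aeval_mul_apply, mul_comm]

theorem TInv_ker (T : V →ₗ[F] V) (p : F[X]) : TInv T (LinearMap.ker (Polynomial.aeval T p)) := by
  intro v hv
  rw [LinearMap.mem_ker] at hv ⊢
  have := aeval_comm T p X v
  rw [aeval_X] at this
  rw [this, hv, map_zero]

theorem TInv_inf {T : V →ₗ[F] V} {A B : Submodule F V} (hA : TInv T A) (hB : TInv T B) : TInv T (A ⊓ B) :=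
  fun v hv => ⟨hA v hv.1, hB v hv.2⟩

theorem TInv_sup {T : V →ₗ[F] V} {A B : Submodule F V} (hA : TInv T A) (hB : TInv T B) : TInv T (A ⊔ B) := by
  intro v hv
  obtain ⟨a, ha, b, hb, rfl⟩ := Submodule.mem_sup.mp hv
  rw [map_add]
  exact Submodule.add_mem_sup (hA a ha) (hB b hb)

theorem TInv_bot (T : V →ₗ[F] V) : TInv T (⊥ : Submodule F V) := by
  intro v hv
  rw [Submodule.mem_bot] at hv ⊢
  rw [hv, map_zero]

theorem TInv_top (T : V →ₗ[F] V) : TInv T (⊤ : Submodule F V) := fun _ _ => trivial

section transfer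

variable {E : Type w} {M : Type v} [Field E] [Algebra F E] [AddCommGroup M] [Module F M] [Module E M]
  [IsScalarTower F E M]

theorem aeval_smul_eq (T₀ : M →ₗ[F] M) (r : E) (hr : ∀ m, T₀ m = r • m) (p : F[X]) (m : M) :
    Polynomial.aeval T₀ p m = (Polynomial.aeval r p) • m := by
  induction p using Polynomial.induction_on generalizing m with
  | C a =>
    simp only [aeval_C, Module.algebraMap_end_apply]
    rw [algebraMap_smul]
  | add p q hp hq =>
    simp only [map_add, LinearMap.add_apply, add_smul, hp, hq]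
  | monomial n a h =>
    have e : C a * X ^ (n + 1) = C a * X ^ n * X := by ring
    rw [e, aeval_mul_apply, aeval_X, h, hr, smul_smul, map_mul (Polynomial.aeval r) (C a * X ^ n) X, aeval_X]

theorem transfer_sum [Module.Finite F E] [FiniteDimensional E M] [Fintype (Submodule F M)] [Fintype (Submodule E M)]
    {d : ℕ} (hd : finrank F E = d) (hd0 : 0 < d) (T₀ : M →ₗ[F] M) (r : E) (hr : ∀ m, T₀ m = r • m)
    (hgen : ∀ e : E, ∃ p : F[X], Polynomial.aeval r p = e) (G : ℕ → ℤ) :
    ∑ A ∈ Finset.univ.filter (fun A : Submodule F M => TInv T₀ A), G (finrank F A / d) =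
      ∑ U : Submodule E M, G (finrank E U) := by
  symm
  refine Finset.sum_bij' (fun U _ => U.restrictScalars F)
    (fun A hA => {
      carrier := A.carrier
      add_mem' := A.add_mem'
      zero_mem' := A.zero_mem'
      smul_mem' := by
        intro e m hm
        obtain ⟨p, rfl⟩ := hgen e
        rw [← aeval_smul_eq T₀ r hr]
        exact TInv.aeval (Finset.mem_filter.mp hA).2 p hm }) ?_ ?_ ?_ ?_ ?_
  · intro U _
    rw [Finset.mem_filter]
    refine ⟨Finset.mem_univ _, fun m hm => ?_⟩
    rw [hr]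
    exact U.smul_mem r hm
  · intro A _
    exact Finset.mem_univ _
  · intro U _
    ext m
    rfl
  · intro A _
    ext m
    rfl
  · intro U _
    have h1 : finrank F ↥(U.restrictScalars F) = finrank F ↥U :=
      LinearEquiv.finrank_eq ((Submodule.restrictScalarsEquiv F E M U).restrictScalars F)
    have h2 := Module.finrank_mul_finrank F E ↥U
    rw [h1, ← h2, hd, Nat.mul_div_cancel_left _ hd0]

end transfer

section homog

variable [Fintype F]

theorem homog_top {M : Type v} [AddCommGroup M] [Module F M] [FiniteDimensional F M] [Nontrivial M]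
    [Fintype (Submodule F M)] {q : ℕ} (hq : Fintype.card F = q) (T₀ : M →ₗ[F] M) {f₀ : F[X]} (hf : Irreducible f₀)
    (hm : f₀.Monic) (h0 : Polynomial.aeval T₀ f₀ = 0) :
    ∑ A ∈ Finset.univ.filter (fun A : Submodule F M => TInv T₀ A),
      gmW (q ^ f₀.natDegree) (finrank F A / f₀.natDegree) = 0 := by
  haveI : Fact (Irreducible f₀) := ⟨hf⟩
  let φ : AdjoinRoot f₀ →+* Module.End F M :=
    Ideal.Quotient.lift (Ideal.span {f₀}) (Polynomial.aeval T₀ : F[X] →ₐ[F] Module.End F M).toRingHom (by
      intro a ha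
      obtain ⟨b, rfl⟩ := Ideal.mem_span_singleton'.mp ha
      simp [h0])
  letI : Module (AdjoinRoot f₀) M := Module.compHom M φ
  have hsmul : ∀ (p : F[X]) (m : M), (AdjoinRoot.mk f₀ p) • m = Polynomial.aeval T₀ p m := fun p m => rfl
  haveI : IsScalarTower F (AdjoinRoot f₀) M := by
    refine ⟨fun c e m => ?_⟩
    obtain ⟨p, rfl⟩ := AdjoinRoot.mk_surjective e
    have h1 : c • AdjoinRoot.mk f₀ p = AdjoinRoot.mk f₀ (C c * p) := by
      rw [map_mul, AdjoinRoot.mk_C, ← AdjoinRoot.algebraMap_eq, ← Algebra.smul_def]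
    rw [h1, hsmul, hsmul, map_mul, aeval_C]
    rfl
  haveI hfin : Module.Finite F (AdjoinRoot f₀) := hm.finite_adjoinRoot
  have hd : finrank F (AdjoinRoot f₀) = f₀.natDegree := (AdjoinRoot.powerBasis' hm).finrank
  haveI : Finite (AdjoinRoot f₀) := Module.finite_of_finite F
  letI : Fintype (AdjoinRoot f₀) := Fintype.ofFinite _
  have hQ : Fintype.card (AdjoinRoot f₀) = q ^ f₀.natDegree := by
    rw [Module.card_eq_pow_finrank (K := F), hq, hd]
  haveI : FiniteDimensional (AdjoinRoot f₀) M := Module.Finite.of_restrictScalars_finite F _ _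
  haveI : Finite M := Module.finite_of_finite F
  letI : Fintype (Submodule (AdjoinRoot f₀) M) := Fintype.ofFinite _
  have hdeg : 0 < f₀.natDegree := hf.natDegree_pos
  rw [transfer_sum hd hdeg T₀ (AdjoinRoot.root f₀)
    (fun m => by
      have := hsmul X m
      rw [aeval_X, AdjoinRoot.mk_X] at this
      exact this.symm)
    (fun e => by
      obtain ⟨p, rfl⟩ := AdjoinRoot.mk_surjective e
      exact ⟨p, by rw [AdjoinRoot.aeval_eq]⟩)]
  have := gm_sum hQ (⊤ : Submodule (AdjoinRoot f₀) M) top_ne_bot
  simpa using this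

variable [FiniteDimensional F V]

theorem aeval_restrict_coe (T : V →ₗ[F] V) {W : Submodule F V} (hW : TInv T W) (p : F[X]) (m : W) :
    ((Polynomial.aeval (T.restrict hW) p m : W) : V) = Polynomial.aeval T p (m : V) := by
  induction p using Polynomial.induction_on generalizing m with
  | C a =>
    simp
  | add p q hp hq =>
    simp only [map_add, LinearMap.add_apply, Submodule.coe_add, hp, hq]
  | monomial n a h =>
    have e : C a * X ^ (n + 1) = C a * X ^ n * X := by ring
    rw [e, aeval_mul_apply, aeval_X, h, aeval_mul_apply T (C a * X ^ n) X, aeval_X]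
    rfl

theorem homog_sum [Fintype (Submodule F V)] {q : ℕ} (hq : Fintype.card F = q) (T : V →ₗ[F] V) {f₀ : F[X]}
    (hf : Irreducible f₀) (hm : f₀.Monic) {W : Submodule F V} (hW : TInv T W) (hW0 : W ≠ ⊥)
    (hWk : W ≤ LinearMap.ker (Polynomial.aeval T f₀)) :
    ∑ A ∈ Finset.univ.filter (fun A : Submodule F V => A ≤ W ∧ TInv T A),
      gmW (q ^ f₀.natDegree) (finrank F A / f₀.natDegree) = 0 := by
  haveI : Nontrivial W := Submodule.nontrivial_iff_ne_bot.mpr hW0
  let T₀ : W →ₗ[F] W := T.restrict hW
  have h0 : Polynomial.aeval T₀ f₀ = 0 := by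
    ext m
    rw [aeval_restrict_coe]
    exact hWk m.2
  haveI : Finite V := Module.finite_of_finite F
  letI : Fintype (Submodule F W) := Fintype.ofFinite _
  have h1 := homog_top hq T₀ hf hm h0
  rw [← h1]
  refine Finset.sum_bij' (fun A _ => A.comap W.subtype) (fun A' _ => A'.map W.subtype) ?_ ?_ ?_ ?_ ?_
  · intro A hA
    rw [Finset.mem_filter] at hA ⊢
    refine ⟨Finset.mem_univ _, fun m hm => ?_⟩
    exact hA.2.2 _ hm
  · intro A' hA'
    rw [Finset.mem_filter] at hA' ⊢
    refine ⟨Finset.mem_univ _, Submodule.map_subtype_le _ _, ?_⟩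
    rintro _ ⟨m, hm, rfl⟩
    exact ⟨T₀ m, hA'.2 m hm, rfl⟩
  · intro A hA
    rw [Finset.mem_filter] at hA
    rw [Submodule.map_comap_subtype, inf_eq_right.mpr hA.2.1]
  · intro A' _
    exact Submodule.comap_map_eq_of_injective W.injective_subtype _
  · intro A hA
    rw [Finset.mem_filter] at hA
    have h2 : finrank F ↥(A.comap W.subtype) = finrank F A := by
      rw [← Submodule.finrank_map_subtype_eq, Submodule.map_comap_subtype, inf_eq_right.mpr hA.2.1]
    rw [h2]

end homog

end Cfsg.Agent.Lib.StVal
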