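/-
The Möbius function of the lattice of subspaces invariant under an endomorphism killed by a squarefree polynomial.
-/
import Cfsg.Agent.Lib.StVal.Homog
import Cfsg.Agent.Lib.StVal.Chains

set_option autoImplicit false
set_option linter.unusedSectionVars false

namespace Cfsg.Agent.Lib.StVal

open Polynomial Module
open scoped BigOperators _root_.Classical

universe u v

variable {F : Type u} {V : Type v} [Field F] [Fintype F] [AddCommGroup V] [Module F V] [FiniteDimensional F V]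

/-- The product weight of an invariant subspace. -/
noncomputable def Phi (q : ℕ) (T : V →ₗ[F] V) (S : Finset F[X]) (W : Submodule F V) : ℤ :=
  ∏ f ∈ S, gmW (q ^ f.natDegree) (finrank F ↥(W ⊓ LinearMap.ker (Polynomial.aeval T f)) / f.natDegree)

theorem Phi_bot (q : ℕ) (T : V →ₗ[F] V) (S : Finset F[X]) : Phi q T S ⊥ = 1 := by
  refine Finset.prod_eq_one fun f _ => ?_
  rw [bot_inf_eq, finrank_bot, Nat.zero_div, gmW_zero]

theorem exists_factor (T : V →ₗ[F] V) (S : Finset F[X]) (hS : Polynomial.aeval T (∏ f ∈ S, f) = 0)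
    {W : Submodule F V} (hW : TInv T W) (hW0 : W ≠ ⊥) :
    ∃ f ∈ S, W ⊓ LinearMap.ker (Polynomial.aeval T f) ≠ ⊥ := by
  by_contra hall
  push Not at hall
  have key : ∀ S' : Finset F[X], S' ⊆ S → ∀ v ∈ W, Polynomial.aeval T (∏ f ∈ S', f) v = 0 → v = 0 := by
    intro S'
    induction S' using Finset.induction_on with
    | empty =>
      intro _ v _ h0
      simpa using h0
    | insert f S'' hf ih =>
      intro hsub v hv h0
      rw [Finset.prod_insert hf, mul_comm, aeval_mul_apply] at h0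
      have h1 := ih ((Finset.subset_insert _ _).trans hsub) _ (TInv.aeval hW f hv) h0
      have h2 : v ∈ W ⊓ LinearMap.ker (Polynomial.aeval T f) := ⟨hv, h1⟩
      rw [hall f (hsub (Finset.mem_insert_self _ _))] at h2
      exact h2
  obtain ⟨v, hv, hv0⟩ := Submodule.exists_mem_ne_zero_of_ne_bot hW0
  exact hv0 (key S subset_rfl v hv (by rw [hS]; rfl))

theorem coprime_of_ne {f g : F[X]} (hf : Irreducible f) (hfm : f.Monic) (hg : Irreducible g) (hgm : g.Monic)
    (h : f ≠ g) : IsCoprime f g := by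
  rw [hf.coprime_iff_not_dvd]
  intro hd
  exact h (eq_of_monic_of_associated hfm hgm (hf.associated_of_dvd hg hd))

theorem sum_Phi [Fintype (Submodule F V)] {q : ℕ} (hq : Fintype.card F = q) (T : V →ₗ[F] V) (S : Finset F[X])
    (hirr : ∀ f ∈ S, Irreducible f) (hmon : ∀ f ∈ S, f.Monic) (hS : Polynomial.aeval T (∏ f ∈ S, f) = 0)
    {W : Submodule F V} (hW : TInv T W) (hW0 : W ≠ ⊥) :
    ∑ U ∈ Finset.univ.filter (fun U : Submodule F V => U ≤ W ∧ TInv T U), Phi q T S U = 0 := by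
  obtain ⟨f₀, hf₀, hne⟩ := exists_factor T S hS hW hW0
  let S₁ := S.erase f₀
  let g₁ : F[X] := ∏ f ∈ S₁, f
  let K₀ := LinearMap.ker (Polynomial.aeval T f₀)
  let K₁ := LinearMap.ker (Polynomial.aeval T g₁)
  have hcop : IsCoprime f₀ g₁ := IsCoprime.prod_right fun f hf =>
    coprime_of_ne (hirr _ hf₀) (hmon _ hf₀) (hirr _ (Finset.mem_of_mem_erase hf)) (hmon _ (Finset.mem_of_mem_erase hf))
      (Finset.ne_of_mem_erase hf).symm
  have hprod : f₀ * g₁ = ∏ f ∈ S, f := Finset.mul_prod_erase S (fun f => f) hf₀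
  have hzero : Polynomial.aeval T (f₀ * g₁) = 0 := by rw [hprod, hS]
  have hdisj : K₀ ⊓ K₁ = ⊥ := (Polynomial.disjoint_ker_aeval_of_isCoprime T hcop).eq_bot
  have hsup : K₀ ⊔ K₁ = ⊤ := by
    simp only [K₀, K₁]
    rw [Polynomial.sup_ker_aeval_eq_ker_aeval_mul_of_coprime T hcop, hzero, LinearMap.ker_zero]
  have hkle : ∀ f ∈ S₁, LinearMap.ker (Polynomial.aeval T f) ≤ K₁ := by
    intro f hf v hv
    obtain ⟨c, hc⟩ : f ∣ g₁ := Finset.dvd_prod_of_mem (fun f => f) hf
    rw [LinearMap.mem_ker] at hv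
    show Polynomial.aeval T g₁ v = 0
    rw [hc, mul_comm, aeval_mul_apply, hv, map_zero]
  have hdec : ∀ U : Submodule F V, TInv T U → (U ⊓ K₀) ⊔ (U ⊓ K₁) = U := by
    intro U hU
    apply le_antisymm (sup_le inf_le_left inf_le_left)
    intro v hv
    obtain ⟨a, b, hab⟩ := hcop
    have h1 : v = Polynomial.aeval T (b * g₁) v + Polynomial.aeval T (a * f₀) v := by
      have : Polynomial.aeval T (a * f₀ + b * g₁) v = v := by rw [hab]; simp
      rw [map_add, LinearMap.add_apply] at this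
      rw [add_comm]
      exact this.symm
    rw [h1]
    refine Submodule.add_mem_sup ⟨TInv.aeval hU _ hv, ?_⟩ ⟨TInv.aeval hU _ hv, ?_⟩
    · show Polynomial.aeval T f₀ _ = 0
      rw [← aeval_mul_apply, show f₀ * (b * g₁) = b * (f₀ * g₁) by ring, aeval_mul_apply, hzero]
      simp
    · show Polynomial.aeval T g₁ _ = 0
      rw [← aeval_mul_apply, show g₁ * (a * f₀) = a * (f₀ * g₁) by ring, aeval_mul_apply, hzero]
      simp
  have hK₀ : TInv T K₀ := TInv_ker T f₀
  have hK₁ : TInv T K₁ := TInv_ker T g₁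
  -- the two projections of `A ⊔ B`
  have hp₀ : ∀ {A B : Submodule F V}, A ≤ K₀ → B ≤ K₁ → (A ⊔ B) ⊓ K₀ = A := by
    intro A B hA hB
    rw [sup_inf_assoc_of_le B hA]
    have : B ⊓ K₀ = ⊥ := by
      rw [eq_bot_iff, ← hdisj, inf_comm K₀]
      exact inf_le_inf_right _ hB
    rw [this, sup_bot_eq]
  have hp₁ : ∀ {A B : Submodule F V}, A ≤ K₀ → B ≤ K₁ → (A ⊔ B) ⊓ K₁ = B := by
    intro A B hA hB
    rw [sup_comm, sup_inf_assoc_of_le A hB]
    have : A ⊓ K₁ = ⊥ := by
      rw [eq_bot_iff, ← hdisj]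
      exact inf_le_inf_right _ hA
    rw [this, sup_bot_eq]
  let 𝒜 := Finset.univ.filter (fun A : Submodule F V => A ≤ W ⊓ K₀ ∧ TInv T A)
  let ℬ := Finset.univ.filter (fun B : Submodule F V => B ≤ W ⊓ K₁ ∧ TInv T B)
  have h1 : ∑ U ∈ Finset.univ.filter (fun U : Submodule F V => U ≤ W ∧ TInv T U), Phi q T S U =
      ∑ p ∈ 𝒜 ×ˢ ℬ, Phi q T S (p.1 ⊔ p.2) := by
    refine Finset.sum_bij' (fun U _ => (U ⊓ K₀, U ⊓ K₁)) (fun p _ => p.1 ⊔ p.2) ?_ ?_ ?_ ?_ ?_
    · intro U hU
      rw [Finset.mem_filter] at hU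
      rw [Finset.mem_product]
      refine ⟨Finset.mem_filter.mpr ⟨Finset.mem_univ _, inf_le_inf_right _ hU.2.1, TInv_inf hU.2.2 hK₀⟩,
        Finset.mem_filter.mpr ⟨Finset.mem_univ _, inf_le_inf_right _ hU.2.1, TInv_inf hU.2.2 hK₁⟩⟩
    · intro p hp
      rw [Finset.mem_product] at hp
      obtain ⟨hA, hB⟩ := hp
      rw [Finset.mem_filter] at hA hB ⊢
      exact ⟨Finset.mem_univ _, sup_le (hA.2.1.trans inf_le_left) (hB.2.1.trans inf_le_left), TInv_sup hA.2.2 hB.2.2⟩
    · intro U hU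
      rw [Finset.mem_filter] at hU
      exact hdec U hU.2.2
    · intro p hp
      rw [Finset.mem_product] at hp
      obtain ⟨hA, hB⟩ := hp
      rw [Finset.mem_filter] at hA hB
      have hA' := hA.2.1.trans inf_le_right
      have hB' := hB.2.1.trans inf_le_right
      exact Prod.ext (hp₀ hA' hB') (hp₁ hA' hB')
    · intro U hU
      rw [Finset.mem_filter] at hU
      show Phi q T S U = Phi q T S ((U ⊓ K₀) ⊔ (U ⊓ K₁))
      rw [hdec U hU.2.2]
  have h2 : ∀ A ∈ 𝒜, ∀ B ∈ ℬ, Phi q T S (A ⊔ B) =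
      gmW (q ^ f₀.natDegree) (finrank F A / f₀.natDegree) * Phi q T S₁ B := by
    intro A hA B hB
    rw [Finset.mem_filter] at hA hB
    have hA' := hA.2.1.trans inf_le_right
    have hB' := hB.2.1.trans inf_le_right
    rw [Phi, ← Finset.mul_prod_erase S _ hf₀, Phi]
    have h3 : (A ⊔ B) ⊓ LinearMap.ker (Polynomial.aeval T f₀) = A := hp₀ hA' hB'
    rw [h3]
    congr 1
    refine Finset.prod_congr rfl fun f hf => ?_
    have h4 : (A ⊔ B) ⊓ LinearMap.ker (Polynomial.aeval T f) = B ⊓ LinearMap.ker (Polynomial.aeval T f) := by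
      conv_lhs => rw [← inf_eq_right.mpr (hkle f hf), ← inf_assoc, hp₁ hA' hB']
    rw [h4]
  rw [h1, Finset.sum_product]
  simp only
  rw [Finset.sum_congr rfl fun A hA => Finset.sum_congr rfl fun B hB => h2 A hA B hB]
  simp only [← Finset.mul_sum]
  rw [← Finset.sum_mul]
  have h3 := homog_sum hq T (hirr _ hf₀) (hmon _ hf₀) (TInv_inf hW hK₀) hne inf_le_right
  rw [h3, zero_mul]

/-- The proper nonzero invariant subspaces of `W`. -/
noncomputable def IW [Fintype (Submodule F V)] (T : V →ₗ[F] V) (W : Submodule F V) : Finset (Submodule F V) :=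
  Finset.univ.filter (fun U : Submodule F V => TInv T U ∧ ⊥ < U ∧ U < W)

theorem mem_IW [Fintype (Submodule F V)] {T : V →ₗ[F] V} {W U : Submodule F V} :
    U ∈ IW T W ↔ TInv T U ∧ ⊥ < U ∧ U < W := by
  simp [IW]

theorem chainSum_IW [Fintype (Submodule F V)] {q : ℕ} (hq : Fintype.card F = q) (T : V →ₗ[F] V) (S : Finset F[X])
    (hirr : ∀ f ∈ S, Irreducible f) (hmon : ∀ f ∈ S, f.Monic) (hS : Polynomial.aeval T (∏ f ∈ S, f) = 0)
    (W : Submodule F V) (hW : TInv T W) (hW0 : W ≠ ⊥) : chainSum (IW T W) = - Phi q T S W := by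
  induction hm : finrank F W using Nat.strong_induction_on generalizing W with
  | _ m ih =>
  have h1 : ∀ y ∈ IW T W, chainSum ((IW T W).filter (· < y)) = - Phi q T S y := by
    intro y hy
    rw [mem_IW] at hy
    have h2 : (IW T W).filter (· < y) = IW T y := by
      ext U
      rw [Finset.mem_filter, mem_IW, mem_IW]
      constructor
      · rintro ⟨⟨h3, h4, _⟩, h6⟩
        exact ⟨h3, h4, h6⟩
      · rintro ⟨h3, h4, h5⟩
        exact ⟨⟨h3, h4, h5.trans hy.2.2⟩, h5⟩
    rw [h2]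
    exact ih (finrank F y) (hm ▸ Submodule.finrank_lt_finrank_of_lt hy.2.2) y hy.1 hy.2.1.ne' rfl
  rw [chainSum_rec, Finset.sum_congr rfl h1, Finset.sum_neg_distrib, sub_neg_eq_add]
  have h3 : Finset.univ.filter (fun U : Submodule F V => U ≤ W ∧ TInv T U) = insert ⊥ (insert W (IW T W)) := by
    ext U
    simp only [Finset.mem_filter, Finset.mem_univ, true_and, Finset.mem_insert, mem_IW]
    constructor
    · rintro ⟨h4, h5⟩
      by_cases h6 : U = ⊥
      · exact Or.inl h6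
      · by_cases h7 : U = W
        · exact Or.inr (Or.inl h7)
        · exact Or.inr (Or.inr ⟨h5, bot_lt_iff_ne_bot.mpr h6, lt_of_le_of_ne h4 h7⟩)
    · rintro (rfl | rfl | ⟨h4, _, h6⟩)
      · exact ⟨bot_le, TInv_bot T⟩
      · exact ⟨le_rfl, hW⟩
      · exact ⟨h6.le, h4⟩
  have h4 := sum_Phi hq T S hirr hmon hS hW hW0
  rw [h3, Finset.sum_insert, Finset.sum_insert, Phi_bot] at h4
  · linarith
  · intro h
    rw [mem_IW] at h
    exact lt_irrefl _ h.2.2
  · intro h
    rw [Finset.mem_insert, mem_IW] at h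
    rcases h with h | h
    · exact hW0 h.symm
    · exact lt_irrefl _ h.2.1

end Cfsg.Agent.Lib.StVal
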