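/-
Assembly: the values of the Steinberg character of `GL_n(q)` at semisimple elements.
-/
import Cfsg.Agent.Lib.StVal.FlagChain
import Cfsg.Agent.Lib.StVal.Lattice
import Cfsg.Agent.Lib.StVal.CountChar

set_option autoImplicit false
set_option linter.unusedSectionVars false

namespace Cfsg.Agent.Lib.StVal

open Polynomial Module UniqueFactorizationMonoid
open Cfsg.Agent.Lib.Classical.Flags Cfsg.Agent.Lib.MatConj.Semisimple
open scoped BigOperators MatrixGroups

universe u

variable {n : ℕ}

theorem card_Dn : (Dn n).card = n - 1 := by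
  have h1 : Dn n = Finset.univ.filter (fun i : Fin n => i.val < n - 1) := by
    ext i
    simp only [mem_Dn, Finset.mem_filter, Finset.mem_univ, true_and]
    omega
  rw [h1, Fin.card_filter_val_lt]
  omega

theorem card_Jof {E : Finset (Fin n)} (hE : E ⊆ Dn n) : E.card + (Jof n E).card = n - 1 := by
  have h1 : (Jof n E).card = ((Dn n) \ E).card := by
    apply Finset.card_image_of_injective
    intro a b hab
    apply Fin.ext
    simpa using hab
  rw [h1, Finset.card_sdiff_of_subset hE, card_Dn]
  have := Finset.card_le_card hE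
  rw [card_Dn] at this
  omega

theorem sum_Jof (G : Finset ℕ → ℤ) :
    ∑ E ∈ (Dn n).powerset, (-1 : ℤ) ^ E.card * G (Jof n E) =
      (-1 : ℤ) ^ (n - 1) * ∑ J ∈ (Finset.Ioo 0 n).powerset, (-1 : ℤ) ^ J.card * G J := by
  classical
  rw [Finset.mul_sum]
  refine Finset.sum_bij' (fun E _ => Jof n E) (fun J _ => (Dn n).filter fun s => s.val + 1 ∉ J) ?_ ?_ ?_ ?_ ?_
  · intro E _
    exact Finset.mem_powerset.mpr (Jof_subset E)
  · intro J _
    exact Finset.mem_powerset.mpr (Finset.filter_subset _ _)
  · intro E hE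
    have hE' := Finset.mem_powerset.mp hE
    ext s
    rw [Finset.mem_filter]
    constructor
    · rintro ⟨hs, hs'⟩
      by_contra hsE
      exact hs' (mem_Jof.mpr ⟨s, mem_Dn.mp hs, hsE, rfl⟩)
    · intro hs
      refine ⟨hE' hs, fun h => ?_⟩
      obtain ⟨s', _, h2, h3⟩ := mem_Jof.mp h
      have : s' = s := Fin.ext (by omega)
      exact h2 (this ▸ hs)
  · intro J hJ
    have hJ' := Finset.mem_powerset.mp hJ
    ext a
    rw [mem_Jof]
    constructor
    · rintro ⟨s, h1, h2, rfl⟩
      by_contra h3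
      exact h2 (Finset.mem_filter.mpr ⟨mem_Dn.mpr h1, h3⟩)
    · intro ha
      have ha' := Finset.mem_Ioo.mp (hJ' ha)
      refine ⟨⟨a - 1, by omega⟩, by simp only []; omega, ?_, by simp only []; omega⟩
      intro h
      have h3 := (Finset.mem_filter.mp h).2
      apply h3
      have : a - 1 + 1 = a := by omega
      simpa only [this] using ha
  · intro E hE
    have h1 := card_Jof (Finset.mem_powerset.mp hE)
    rw [← h1, pow_add, mul_assoc, ← mul_assoc ((-1 : ℤ) ^ (Jof n E).card), ← pow_add, ← two_mul, pow_mul]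
    simp

variable {F : Type u} [Field F]

theorem TInv_lin_iff (x : GL (Fin n) F) (U : Submodule F (Fin n → F)) : TInv (lin x) U ↔ U.map (lin x) = U := by
  constructor
  · intro h
    apply Submodule.eq_of_le_of_finrank_eq
    · rintro _ ⟨v, hv, rfl⟩
      exact h v hv
    · exact finrank_map_lin x U
  · intro h v hv
    rw [← h]
    exact Submodule.mem_map_of_mem hv

open scoped _root_.Classical in
theorem sum_Ch [Fintype F] [Fintype (Submodule F (Fin n → F))] (x : GL (Fin n) F) :
    ∑ J ∈ (Finset.Ioo 0 n).powerset, (-1 : ℤ) ^ J.card * ((Ch x J).card : ℤ) = chainSum (IW (lin x) ⊤) := by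
  have hrank : ∀ U : Submodule F (Fin n → F), finrank F U ∈ Finset.Ioo 0 n ↔ ⊥ < U ∧ U < ⊤ := by
    intro U
    have h0 : finrank F (Fin n → F) = n := by simp
    rw [Finset.mem_Ioo, bot_lt_iff_ne_bot, lt_top_iff_ne_top]
    constructor
    · rintro ⟨h1, h2⟩
      refine ⟨?_, ?_⟩
      · rintro rfl
        simp at h1
      · rintro rfl
        rw [finrank_top, h0] at h2
        exact lt_irrefl _ h2
    · rintro ⟨h1, h2⟩
      refine ⟨Nat.pos_of_ne_zero (fun h => h1 (Submodule.finrank_eq_zero.mp h)), ?_⟩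
      have := Submodule.finrank_lt h2
      rwa [h0] at this
  rw [chainSum]
  rw [← Finset.sum_fiberwise_of_maps_to (t := (Finset.Ioo 0 n).powerset)
    (g := fun S : Finset (Submodule F (Fin n → F)) => S.image (fun U : Submodule F (Fin n → F) => finrank F U))]
  · refine Finset.sum_congr rfl fun J hJ => ?_
    have hJ' := Finset.mem_powerset.mp hJ
    have h1 : ((IW (lin x) ⊤).powerset.filter (fun S : Finset (Submodule F (Fin n → F)) => IsChain (· ≤ ·) (S : Set (Submodule F (Fin n → F))))).filter
        (fun S => S.image (fun U : Submodule F (Fin n → F) => finrank F U) = J) = Ch x J := by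
      ext S
      simp only [Finset.mem_filter, Finset.mem_powerset, mem_Ch]
      constructor
      · rintro ⟨⟨h1, h2⟩, h3⟩
        exact ⟨h2, fun U hU => (TInv_lin_iff x U).mp (mem_IW.mp (h1 hU)).1, h3⟩
      · rintro ⟨h2, h3, h4⟩
        refine ⟨⟨fun U hU => ?_, h2⟩, h4⟩
        rw [mem_IW]
        refine ⟨(TInv_lin_iff x U).mpr (h3 U hU), ?_⟩
        rw [← hrank]
        apply hJ'
        rw [← h4]
        exact Finset.mem_image_of_mem _ hU
    rw [h1]
    have h2 : ∀ S ∈ Ch x J, (-1 : ℤ) ^ S.card = (-1 : ℤ) ^ J.card := by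
      intro S hS
      obtain ⟨h3, _, h4⟩ := mem_Ch.mp hS
      rw [← h4, Finset.card_image_of_injOn]
      intro U hU U' hU' h
      exact chain_eq_of_finrank h3 hU hU' h
    rw [Finset.sum_congr rfl h2, Finset.sum_const, nsmul_eq_mul, mul_comm]
  · intro S hS
    simp only [Finset.mem_filter, Finset.mem_powerset] at hS
    rw [Finset.mem_powerset]
    intro a ha
    obtain ⟨U, hU, rfl⟩ := Finset.mem_image.mp ha
    rw [hrank]
    exact (mem_IW.mp (hS.1 hU)).2

open scoped _root_.Classical in
theorem unip_eq [Fintype F] (x : GL (Fin n) F) :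
    Cfsg.unipotentCharacterGL n F (fun _ => 1) x =
      (((∑ E ∈ (Dn n).powerset, (-1 : ℤ) ^ E.card * ((Ch x (Jof n E)).card : ℤ)) : ℤ) : ℂ) := by
  rw [← sum_Hess (G := fun E => (-1 : ℤ) ^ E.card * ((Ch x (Jof n E)).card : ℤ)), Finset.sum_filter]
  rw [Int.cast_sum]
  refine Finset.sum_congr rfl fun κ _ => ?_
  by_cases hκ : Hess κ
  · rw [if_pos (fun i => by have := hκ i; show (κ i).val ≤ 1 + i.val; omega), if_pos hκ]
    have h1 : Cfsg.fixedPointCharacter (Cfsg.parabolicGL n F fun i => (fun _ => 1) i + i.val - (κ i).val) x =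
        ((Ch x (Jof n (En κ))).card : ℂ) := by
      show ((Nat.card (MulAction.fixedBy (GL (Fin n) F ⧸ Cfsg.parabolicGL n F (muK κ)) x) : ℕ) : ℂ) = _
      rw [card_fix (Jof n (En κ)) (fun a ha => (Finset.mem_Ioo.mp (Jof_subset _ ha)).2.le) _ (mem_par_iff hκ) x]
    rw [h1, sign_of_Hess hκ]
    push_cast
    rfl
  · rw [if_neg (fun h => hκ (fun i => by have : (κ i).val ≤ 1 + i.val := h i; omega)), if_neg hκ]
    simp

theorem lin_pow (g : GL (Fin n) F) (k : ℕ) : (lin g) ^ k = lin (g ^ k) := by
  induction k with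
  | zero =>
    rw [pow_zero, pow_zero, lin_one]
    rfl
  | succ k ih =>
    rw [pow_succ, pow_succ, lin_mul, ih]
    rfl

theorem local_factor (q d c : ℕ) (hd : 0 < d) :
    (-1 : ℤ) ^ (c * d) * gmW (q ^ d) c = (-1) ^ ((d - 1) * c) * (q : ℤ) ^ (d * c * (c - 1) / 2) := by
  rw [gmW]
  have h1 : d * c * (c - 1) / 2 = d * c.choose 2 := by
    rw [Nat.choose_two_right, mul_assoc, Nat.mul_div_assoc _ (even_iff_two_dvd.mp (Nat.even_mul_pred_self c))]
  rw [h1, pow_mul (q : ℤ) d]
  push_cast
  obtain ⟨e, rfl⟩ : ∃ e, d = e + 1 := ⟨d - 1, by omega⟩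
  have h2 : (-1 : ℤ) ^ (c * (e + 1)) * (-1) ^ c = (-1) ^ (e * c) := by
    rw [← pow_add, show c * (e + 1) + c = e * c + 2 * c by ring, pow_add, pow_mul (-1 : ℤ) 2 c]
    simp
  rw [← mul_assoc, h2]
  simp

theorem main_value [Fintype F] [DecidableEq F] [DecidableEq F[X]] {q : ℕ} (hq : Fintype.card F = q) (p : ℕ) [Fact p.Prime]
    [CharP F p] (x : GL (Fin n) F) (hx : (orderOf x).Coprime p) :
    Cfsg.unipotentCharacterGL n F (fun _ => 1) x =
      ∏ f ∈ (normalizedFactors (x : Matrix (Fin n) (Fin n) F).charpoly).toFinset,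
        (-1 : ℂ) ^ ((f.natDegree - 1) * (normalizedFactors (x : Matrix (Fin n) (Fin n) F).charpoly).count f) *
          (q : ℂ) ^ (f.natDegree * (normalizedFactors (x : Matrix (Fin n) (Fin n) F).charpoly).count f *
            ((normalizedFactors (x : Matrix (Fin n) (Fin n) F).charpoly).count f - 1) / 2) := by
  letI : Fintype (Submodule F (Fin n → F)) := Fintype.ofFinite _
  rw [unip_eq x, sum_Jof (fun J => ((Ch x J).card : ℤ)), sum_Ch x]
  rcases Nat.eq_zero_or_pos n with rfl | hn
  · have h1 : IW (lin x) (⊤ : Submodule F (Fin 0 → F)) = ∅ := by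
      ext U
      simp only [mem_IW, Finset.notMem_empty, iff_false]
      rintro ⟨_, h2, h3⟩
      have : (⊥ : Submodule F (Fin 0 → F)) = ⊤ := Subsingleton.elim _ _
      rw [← this] at h3
      exact lt_asymm h2 h3
    rw [h1, chainSum_rec]
    have h2 : (x : Matrix (Fin 0) (Fin 0) F).charpoly = 1 := Matrix.charpoly_isEmpty
    rw [h2, normalizedFactors_one]
    simp
  let T : (Fin n → F) →ₗ[F] (Fin n → F) := lin x
  set χ := (x : Matrix (Fin n) (Fin n) F).charpoly with hχdef
  have hχ : T.charpoly = χ := Matrix.charpoly_mulVecLin _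
  have hN : ((orderOf x : ℕ) : F) ≠ 0 := by
    intro h
    rw [CharP.cast_eq_zero_iff F p] at h
    exact ((Nat.Prime.coprime_iff_not_dvd (Fact.out : p.Prime)).mp hx.symm) h
  have hN0 : orderOf x ≠ 0 := by
    intro h
    apply hN
    rw [h, Nat.cast_zero]
  let g₀ : F[X] := X ^ orderOf x - 1
  have hsq : Squarefree g₀ := (X_pow_sub_one_separable_iff.mpr hN).squarefree
  have hg0 : g₀ ≠ 0 := hsq.ne_zero
  have hg0m : g₀.Monic := by
    have : g₀ = X ^ orderOf x - Polynomial.C 1 := by simp [g₀]
    rw [this]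
    exact monic_X_pow_sub_C 1 hN0
  have h0 : Polynomial.aeval T g₀ = 0 := by
    simp only [g₀, map_sub, map_pow, aeval_X, map_one]
    rw [show T = lin x from rfl, lin_pow, pow_orderOf_eq_one, lin_one]
    exact sub_self _
  obtain ⟨κ, _, R, Φ, hdec, hdvd⟩ := exists_ssDecomp T g₀ hsq h0
  have hcount : ∀ f : F[X], Irreducible f → f.Monic →
      (normalizedFactors χ).count f * f.natDegree = finrank F (LinearMap.ker (Polynomial.aeval T f)) := by
    intro f hf hm
    rw [← hχ]
    exact count_of_decomp hdec f hf hm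
  let S := (normalizedFactors g₀).toFinset
  have hirr : ∀ f ∈ S, Irreducible f := fun f hf => irreducible_of_normalized_factor f (Multiset.mem_toFinset.mp hf)
  have hmon : ∀ f ∈ S, f.Monic := by
    intro f hf
    have := normalize_normalized_factor f (Multiset.mem_toFinset.mp hf)
    rw [← this]
    exact monic_normalize (hirr f hf).ne_zero
  have hprodS : ∏ f ∈ S, f = g₀ := by
    have h1 := Finset.prod_multiset_count (normalizedFactors g₀)
    rw [prod_normalizedFactors_eq hg0, hg0m.normalize_eq_self] at h1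
    rw [h1]
    have hnd := (squarefree_iff_nodup_normalizedFactors hg0).mp hsq
    refine Finset.prod_congr rfl fun f hf => ?_
    rw [Multiset.count_eq_one_of_mem hnd (Multiset.mem_toFinset.mp hf), pow_one]
  have hS : Polynomial.aeval T (∏ f ∈ S, f) = 0 := by rw [hprodS, h0]
  have hchain : chainSum (IW T ⊤) = - Phi q T S ⊤ :=
    chainSum_IW hq T S hirr hmon hS ⊤ (TInv_top T) (by
      haveI : Nonempty (Fin n) := Fin.pos_iff_nonempty.mp hn
      exact top_ne_bot)
  have hterm : ∀ f ∈ S, finrank F ↥((⊤ : Submodule F (Fin n → F)) ⊓ LinearMap.ker (Polynomial.aeval T f)) / f.natDegree =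
      (normalizedFactors χ).count f := by
    intro f hf
    rw [top_inf_eq, ← hcount f (hirr f hf) (hmon f hf), Nat.mul_div_cancel _ (hirr f hf).natDegree_pos]
  have hsub : (normalizedFactors χ).toFinset ⊆ S := by
    intro f hf
    have hf' := Multiset.mem_toFinset.mp hf
    have hfi : Irreducible f := irreducible_of_normalized_factor f hf'
    have hfm : f.Monic := by
      have := normalize_normalized_factor f hf'
      rw [← this]
      exact monic_normalize hfi.ne_zero
    have h1 := hcount f hfi hfm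
    rw [hdec.finrank_ker f hfi hfm] at h1
    have h2 : (normalizedFactors χ).count f ≠ 0 := (Multiset.count_ne_zero).mpr hf'
    have h3 := hfi.natDegree_pos
    have h4 : Fintype.card {k // R k = f} ≠ 0 := by
      intro h5
      rw [h5, zero_mul] at h1
      have := Nat.mul_eq_zero.mp h1
      omega
    obtain ⟨⟨k, hk⟩⟩ : Nonempty {k // R k = f} := Fintype.card_pos_iff.mp (Nat.pos_of_ne_zero h4)
    obtain ⟨f', hf'1, hf'2⟩ := exists_mem_normalizedFactors_of_dvd hg0 hfi (hk ▸ hdvd k)
    have hf'm : f'.Monic := hmon f' (Multiset.mem_toFinset.mpr hf'1)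
    rw [eq_of_monic_of_associated hfm hf'm hf'2]
    exact Multiset.mem_toFinset.mpr hf'1
  have hPhi : Phi q T S ⊤ = ∏ f ∈ (normalizedFactors χ).toFinset, gmW (q ^ f.natDegree) ((normalizedFactors χ).count f) := by
    rw [Phi, Finset.prod_congr rfl fun f hf => by rw [hterm f hf]]
    refine (Finset.prod_subset hsub fun f _ hf => ?_).symm
    rw [Multiset.count_eq_zero_of_notMem (fun h => hf (Multiset.mem_toFinset.mpr h)), gmW_zero]
  have hdeg : n = ∑ f ∈ (normalizedFactors χ).toFinset, (normalizedFactors χ).count f * f.natDegree := by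
    have h1 : χ.natDegree = n := by
      rw [hχdef, Matrix.charpoly_natDegree_eq_dim, Fintype.card_fin]
    have hχm : χ.Monic := Matrix.charpoly_monic _
    have h2 := Finset.prod_multiset_count (normalizedFactors χ)
    rw [prod_normalizedFactors_eq hχm.ne_zero, hχm.normalize_eq_self] at h2
    have hm : ∀ f ∈ (normalizedFactors χ).toFinset, f.Monic := by
      intro f hf
      have hf' := Multiset.mem_toFinset.mp hf
      have := normalize_normalized_factor f hf'
      rw [← this]
      exact monic_normalize (irreducible_of_normalized_factor f hf').ne_zero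
    rw [← h1]
    conv_lhs => rw [h2]
    rw [natDegree_prod_of_monic _ _ (fun f hf => (hm f hf).pow _)]
    refine Finset.sum_congr rfl fun f hf => ?_
    rw [(hm f hf).natDegree_pow]
  have hsign : (-1 : ℤ) ^ (n - 1) * (- Phi q T S ⊤) = (-1) ^ n * Phi q T S ⊤ := by
    have : (-1 : ℤ) ^ n = (-1) ^ (n - 1) * (-1) := by
      rw [← pow_succ, Nat.sub_add_cancel hn]
    rw [this]
    ring
  have hfinal : (-1 : ℤ) ^ n * Phi q T S ⊤ = ∏ f ∈ (normalizedFactors χ).toFinset,
      ((-1 : ℤ) ^ ((f.natDegree - 1) * (normalizedFactors χ).count f) *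
        (q : ℤ) ^ (f.natDegree * (normalizedFactors χ).count f * ((normalizedFactors χ).count f - 1) / 2)) := by
    rw [hPhi]
    conv_lhs => rw [hdeg]
    rw [← Finset.prod_pow_eq_pow_sum, ← Finset.prod_mul_distrib]
    refine Finset.prod_congr rfl fun f hf => ?_
    exact local_factor q _ _ (irreducible_of_normalized_factor f (Multiset.mem_toFinset.mp hf)).natDegree_pos
  show (((-1 : ℤ) ^ (n - 1) * chainSum (IW T ⊤) : ℤ) : ℂ) = _
  rw [hchain, hsign, hfinal]
  push_cast
  rfl

end Cfsg.Agent.Lib.StVal
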